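import Mathlib

/-!
# The model property of a simple section

`ModelProp S` collects what the proof of the `S₃`-free module bound needs to know about the automorphisms
of a simple section `S`.
-/

set_option autoImplicit false

namespace Cfsg.Agent.Lib.SThreeFree.Model

/-- For every elementary abelian `2`-subgroup `B` of `Aut(S)` none of whose nontrivial elements inverts an
element of order `3`, each nontrivial `β ∈ B` inverts an element of prime power order `r ^ e` for which
`r ^ e ∤ 2 ^ d - 1` as long as `d ≤ 2 k`, where `|B|² ≤ 2 ^ (k + 1)`. -/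
def ModelProp (S : Type*) [Group S] : Prop :=
  ∀ B : Subgroup (MulAut S), (∀ β ∈ B, β * β = 1) →
    (∀ β ∈ B, ∀ x : S, orderOf x = 3 → β x = x⁻¹ → β = 1) →
    ∀ β ∈ B, β ≠ 1 → ∃ (x : S) (r e k : ℕ), r.Prime ∧ r ≠ 2 ∧ e ≠ 0 ∧ β x = x⁻¹ ∧ orderOf x = r ^ e ∧
      (∀ d, 1 ≤ d → d ≤ 2 * k → ¬ r ^ e ∣ 2 ^ d - 1) ∧ Nat.card B ^ 2 ≤ 2 ^ (k + 1)

/-- The model property is invariant under isomorphism. -/
theorem ModelProp.of_mulEquiv {S S' : Type*} [Group S] [Group S'] (E : S ≃* S') (h : ModelProp S') :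
    ModelProp S := by
  intro B hB h3 β hβ hβ1
  let Φ : MulAut S ≃* MulAut S' := MulAut.congr E
  have hΦ : ∀ γ : MulAut S, ∀ y : S, Φ γ (E y) = E (γ y) := by
    intro γ y
    show E (γ (E.symm (E y))) = E (γ y)
    rw [E.symm_apply_apply]
  have hc : Nat.card (B.map Φ.toMonoidHom) = Nat.card B :=
    Nat.card_congr (B.equivMapOfInjective Φ.toMonoidHom Φ.injective).toEquiv.symm
  obtain ⟨x, r, e, k, hr, hr2, he, hx, hord, hk, hcard⟩ := h (B.map Φ.toMonoidHom)
    (by
      rintro _ ⟨γ, hγ, rfl⟩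
      show Φ γ * Φ γ = 1
      rw [← map_mul, hB γ hγ, map_one])
    (by
      rintro _ ⟨γ, hγ, rfl⟩ x hx3 hx
      show Φ γ = 1
      have h1 : γ = 1 := by
        apply h3 γ hγ (E.symm x)
        · rw [MulEquiv.orderOf_eq, hx3]
        · apply E.injective
          rw [← hΦ, E.apply_symm_apply, map_inv, E.apply_symm_apply]
          exact hx
      rw [h1, map_one])
    (Φ β) ⟨β, hβ, rfl⟩ (by
      intro h1
      apply hβ1
      apply Φ.injective
      rw [h1, map_one])
  refine ⟨E.symm x, r, e, k, hr, hr2, he, ?_, ?_, hk, ?_⟩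
  · apply E.injective
    rw [← hΦ, E.apply_symm_apply, map_inv, E.apply_symm_apply]
    exact hx
  · rw [MulEquiv.orderOf_eq, hord]
  · rwa [hc] at hcard

end Cfsg.Agent.Lib.SThreeFree.Model
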