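import Mathlib
import Cfsg.Agent.Lib.Components.CommAct
import Cfsg.Agent.Lib.Core.Basic
import Cfsg.Agent.Lib.ThreeT.Dih6
import Cfsg.Agent.Lib.SThreeFree.Model
import Cfsg.Prelude.Def_LocalEven

/-!
# Lifting inverted elements from a simple section to a component

`L` a component of `X` with `O₂(X) = 1`, `B` an elementary abelian `2`-group normalizing `L` and centralizing
`Z(L)`.  An element of `L / Z(L)` inverted by the automorphism induced by `b ∈ B` lifts to an element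
inverted by `b`.
-/

set_option autoImplicit false

namespace Cfsg.Agent.Lib.SThreeFree.Lift

open Cfsg Subgroup Cfsg.Agent.Lib.SThreeFree.Model Cfsg.Agent.Lib.Components.Basic
open scoped commutatorElement

/-- A section `⟨x, a⟩ ≅ S₃`. -/
theorem involves_of_inverted {X : Type*} [Group X] {a x : X} (haa : a * a = 1) (hax : a * x * a⁻¹ = x⁻¹)
    (hx3 : x ^ 3 = 1) (hx1 : x ≠ 1) : Cfsg.Involves (Equiv.Perm (Fin 3)) X := by
  let K := Subgroup.closure ({a, a * x} : Set X)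
  let s : K := ⟨a, Subgroup.subset_closure (by simp)⟩
  let t : K := ⟨a * x, Subgroup.subset_closure (by simp)⟩
  have hainv : a⁻¹ = a := inv_eq_of_mul_eq_one_left haa
  have hT : Cfsg.Agent.Lib.ThreeT.Dih6.Pair s t := by
    refine ⟨Subtype.ext haa, Subtype.ext ?_, Subtype.ext ?_⟩
    · show a * x * (a * x) = 1
      rw [hainv] at hax
      rw [← mul_assoc, hax, inv_mul_cancel]
    · show (a * (a * x)) ^ 3 = 1
      rw [← mul_assoc, haa, one_mul, hx3]
  have hgen : Subgroup.closure ({s, t} : Set K) = ⊤ := by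
    have h1 : ({s, t} : Set K) = (K.subtype) ⁻¹' ({a, a * x} : Set X) := by
      ext w
      constructor
      · rintro (rfl | rfl)
        · exact Or.inl rfl
        · exact Or.inr rfl
      · rintro (h | h)
        · exact Or.inl (Subtype.ext h)
        · exact Or.inr (Subtype.ext h)
    rw [h1]
    exact Subgroup.closure_closure_coe_preimage
  have hne : s ≠ t := by
    intro h
    have h2 : a = a * x := congrArg Subtype.val h
    exact hx1 (by simpa using h2.symm)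
  obtain ⟨e⟩ := hT.nonempty_equiv hgen hne
  refine ⟨K, ⊥, ?_, ⟨?_⟩⟩
  · rw [Subgroup.bot_subgroupOf]
    infer_instance
  · have h3 : (⊥ : Subgroup X).subgroupOf K = ⊥ := Subgroup.bot_subgroupOf K
    exact (QuotientGroup.quotientMulEquivOfEq h3).trans ((QuotientGroup.quotientBot).trans e)

/-- The functor `Aut(Q) → Aut(Q / Z(Q))`. -/
noncomputable def qAut (Q : Type*) [Group Q] : MulAut Q →* MulAut (Q ⧸ center Q) where
  toFun e := QuotientGroup.congr (center Q) (center Q) e (by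
    ext x
    constructor
    · rintro ⟨y, hy, rfl⟩
      rw [SetLike.mem_coe, Subgroup.mem_center_iff] at hy
      rw [Subgroup.mem_center_iff]
      intro g
      obtain ⟨g', rfl⟩ := e.surjective g
      show e g' * e y = e y * e g'
      rw [← map_mul, ← map_mul, hy]
    · intro hx
      refine ⟨e.symm x, ?_, by simp⟩
      rw [Subgroup.mem_center_iff] at hx
      rw [SetLike.mem_coe, Subgroup.mem_center_iff]
      intro g
      apply e.injective
      rw [map_mul, map_mul, e.apply_symm_apply, hx])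
  map_one' := by
    refine MulEquiv.ext fun x => ?_
    obtain ⟨s, rfl⟩ := QuotientGroup.mk_surjective x
    rfl
  map_mul' e f := by
    refine MulEquiv.ext fun x => ?_
    obtain ⟨s, rfl⟩ := QuotientGroup.mk_surjective x
    rfl

lemma qAut_mk {Q : Type*} [Group Q] (e : MulAut Q) (t : Q) :
    qAut Q e (t : Q ⧸ center Q) = ((e t : Q) : Q ⧸ center Q) := rfl

variable {X : Type*} [Group X]

/-- The action of a subgroup normalizing `L` on `L / Z(L)`. -/
noncomputable def secHom (L B : Subgroup X) (hB : B ≤ normalizer (L : Set X)) :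
    ↥B →* MulAut (↥L ⧸ center ↥L) :=
  (qAut ↥L).comp (L.normalizerMonoidHom.comp (Subgroup.inclusion hB))

/-- Conjugation on `L`. -/
lemma conj_mem {L : Subgroup X} {b : X} (hb : b ∈ normalizer (L : Set X)) {t : X} (ht : t ∈ L) :
    b * t * b⁻¹ ∈ L := (hb t).1 ht

lemma secHom_mk {L B : Subgroup X} (hB : B ≤ normalizer (L : Set X)) (b : ↥B) (t : ↥L) :
    secHom L B hB b (t : ↥L ⧸ center ↥L) =
      ((⟨(b : X) * t * (b : X)⁻¹, conj_mem (hB b.2) t.2⟩ : ↥L) : ↥L ⧸ center ↥L) := rfl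

/-- An element acting trivially on `L / Z(L)` centralizes `L`. -/
theorem mem_centralizer_of_secHom {L B : Subgroup X} (hL : IsComponent L)
    (hB : B ≤ normalizer (L : Set X)) (b : ↥B) (hb : secHom L B hB b = 1) :
    (b : X) ∈ centralizer (L : Set X) := by
  set K := ((secHom L B hB).ker).map B.subtype with hK
  have hperf : ⁅L, L⁆ = L := commutator_self_of_quasisimple hL.2
  have h1 : ⁅L, K⁆ ≤ centralizer (L : Set X) := by
    rw [Subgroup.commutator_le]
    rintro t ht _ ⟨k, hk, rfl⟩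
    have hk1 : secHom L B hB k = 1 := hk
    have h2 := congrArg (fun f : MulAut (↥L ⧸ center ↥L) => f ((⟨t⁻¹, L.inv_mem ht⟩ : ↥L) : ↥L ⧸ center ↥L)) hk1
    simp only [secHom_mk, MulAut.one_apply] at h2
    rw [eq_comm, QuotientGroup.eq, Subgroup.mem_center_iff] at h2
    rw [Subgroup.mem_centralizer_iff]
    intro v hv
    have h3 := h2 ⟨v, hv⟩
    have h4 := congrArg Subtype.val h3
    simp only [Subgroup.coe_mul, Subgroup.coe_inv, inv_inv] at h4
    rw [commutatorElement_def]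
    show v * (t * (k : X) * t⁻¹ * (k : X)⁻¹) = (t * (k : X) * t⁻¹ * (k : X)⁻¹) * v
    simpa [mul_assoc] using h4
  have h5 : ⁅⁅L, K⁆, L⁆ = ⊥ := Subgroup.commutator_eq_bot_iff_le_centralizer.2 h1
  have h6 : ⁅L, K⁆ = ⊥ := commutator_eq_bot_of_perfect hperf h5
  rw [Subgroup.mem_centralizer_iff]
  intro t ht
  have h7 : ⁅t, (b : X)⁆ ∈ ⁅L, K⁆ := Subgroup.commutator_mem_commutator ht ⟨b, by
    show secHom L B hB b = 1
    exact hb, rfl⟩
  rw [h6, Subgroup.mem_bot] at h7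
  exact commutatorElement_eq_one_iff_mul_comm.1 h7

/-- The kernel of the action on `L / Z(L)`. -/
theorem card_eq {L A : Subgroup X} [Finite X] (hL : IsComponent L) :
    Nat.card ↥(A ⊓ normalizer (L : Set X)) =
      Nat.card (secHom L (A ⊓ normalizer (L : Set X)) inf_le_right).range *
        Nat.card ↥(A ⊓ centralizer (L : Set X)) := by
  set B := A ⊓ normalizer (L : Set X) with hB
  set ψ := secHom L B inf_le_right with hψ
  have h1 : Nat.card ψ.ker = Nat.card ↥(A ⊓ centralizer (L : Set X)) := by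
    refine Nat.card_congr ⟨fun b => ⟨b.1.1, b.1.2.1, ?_⟩, fun c => ⟨⟨c.1, c.2.1, ?_⟩, ?_⟩, ?_, ?_⟩
    · exact mem_centralizer_of_secHom hL inf_le_right b.1 b.2
    · exact Subgroup.centralizer_le_normalizer _ c.2.2
    · rw [MonoidHom.mem_ker]
      refine MulEquiv.ext fun x => ?_
      obtain ⟨t, rfl⟩ := QuotientGroup.mk_surjective x
      rw [hψ, secHom_mk, MulAut.one_apply]
      congr 1
      apply Subtype.ext
      have h3 : (c : X) * t = t * c := ((Subgroup.mem_centralizer_iff.1 c.2.2 t t.2)).symm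
      show (c : X) * t * (c : X)⁻¹ = t
      rw [h3]
      group
    · intro b
      rfl
    · intro c
      rfl
  rw [← h1, mul_comm, ← Subgroup.index_ker]
  exact (Subgroup.card_mul_index _).symm

/-- `Z(L)` has no involution. -/
theorem center_sq_eq_one [Finite X] {L : Subgroup X} (hL : IsComponent L) (hO : pCore 2 X = ⊥) {z : ↥L}
    (hz : z ∈ center ↥L) (hzz : z * z = 1) : z = 1 := by
  haveI : Fact (Nat.Prime 2) := ⟨Nat.prime_two⟩
  have h1 : (pCore 2 ↥L).map L.subtype = pCore 2 X ⊓ L :=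
    Cfsg.Agent.Lib.Core.Basic.map_pCore_of_isSubnormal hL.1
  rw [hO, bot_inf_eq] at h1
  have h2 : pCore 2 ↥L = ⊥ := (Subgroup.map_eq_bot_iff_of_injective _ L.subtype_injective).1 h1
  have hN : (Subgroup.zpowers z).Normal := by
    refine ⟨fun g hg h => ?_⟩
    obtain ⟨k, rfl⟩ := Subgroup.mem_zpowers_iff.1 hg
    have hc : h * z ^ k * h⁻¹ = z ^ k := by
      have : Commute h z := (Subgroup.mem_center_iff.1 hz h)
      rw [(this.zpow_right k).eq]
      group
    rw [hc]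
    exact ⟨k, rfl⟩
  have hp : IsPGroup 2 (Subgroup.zpowers z) := by
    intro g
    refine ⟨1, ?_⟩
    obtain ⟨g, hg⟩ := g
    obtain ⟨k, rfl⟩ := Subgroup.mem_zpowers_iff.1 hg
    apply Subtype.ext
    show (z ^ k) ^ 2 ^ 1 = 1
    rw [pow_one, pow_two, ← (Commute.refl z).mul_zpow, hzz, one_zpow]
  have h3 : Subgroup.zpowers z ≤ pCore 2 ↥L := Cfsg.Agent.Lib.Core.Basic.le_pCore hN hp
  rw [h2, Subgroup.zpowers_le, Subgroup.mem_bot] at h3
  exact h3

/-- The lifting lemma. -/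
theorem lift_inverted [Finite X] {L B : Subgroup X} (hL : IsComponent L) (hO : pCore 2 X = ⊥)
    (hB : B ≤ normalizer (L : Set X)) (b : ↥B) (hbb : (b : X) * b = 1)
    (hbZ : ∀ z : ↥L, z ∈ center ↥L → (b : X) * z = z * b) (x : ↥L ⧸ center ↥L)
    (hx : secHom L B hB b x = x⁻¹) {n : ℕ} (hxn : x ^ n = 1) :
    ∃ t : ↥L, (b : X) * t * (b : X)⁻¹ = (t : X)⁻¹ ∧ t ^ n = 1 ∧ (t : ↥L ⧸ center ↥L) = x ^ 2 := by
  obtain ⟨x₀, rfl⟩ := QuotientGroup.mk_surjective x
  have hbinv : (b : X)⁻¹ = b := inv_eq_of_mul_eq_one_left hbb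
  let c : ↥L := ⟨(b : X) * x₀ * (b : X)⁻¹, conj_mem (hB b.2) x₀.2⟩
  have hc : (c : ↥L ⧸ center ↥L) = (x₀ : ↥L ⧸ center ↥L)⁻¹ := by
    rw [← hx, secHom_mk]
  let t : ↥L := x₀ * c⁻¹
  have ht1 : (b : X) * t * (b : X)⁻¹ = (t : X)⁻¹ := by
    show (b : X) * (x₀ * ((b : X) * x₀ * (b : X)⁻¹)⁻¹) * (b : X)⁻¹ = (x₀ * ((b : X) * x₀ * (b : X)⁻¹)⁻¹ : X)⁻¹
    simp only [mul_inv_rev, inv_inv, hbinv]
    simp only [mul_assoc, hbb, mul_one]
  have ht3 : (t : ↥L ⧸ center ↥L) = (x₀ : ↥L ⧸ center ↥L) ^ 2 := by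
    show ((x₀ * c⁻¹ : ↥L) : ↥L ⧸ center ↥L) = _
    rw [QuotientGroup.mk_mul, QuotientGroup.mk_inv, hc, inv_inv, pow_two]
  refine ⟨t, ht1, ?_, ht3⟩
  have hz : t ^ n ∈ center ↥L := by
    rw [← QuotientGroup.eq_one_iff, QuotientGroup.mk_pow, ht3, ← pow_mul, mul_comm, pow_mul, hxn, one_pow]
  apply center_sq_eq_one hL hO hz
  apply Subtype.ext
  have h1 : (b : X) * ((t ^ n : ↥L) : X) * (b : X)⁻¹ = ((t ^ n : ↥L) : X) := by
    rw [hbZ _ hz, mul_assoc, mul_inv_cancel, mul_one]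
  have h2 : (b : X) * ((t ^ n : ↥L) : X) * (b : X)⁻¹ = ((t ^ n : ↥L) : X)⁻¹ := by
    rw [Subgroup.coe_pow, ← conj_pow, ht1, inv_pow]
  have h3 : ((t ^ n : ↥L) : X)⁻¹ = ((t ^ n : ↥L) : X) := h2.symm.trans h1
  show ((t ^ n : ↥L) : X) * ((t ^ n : ↥L) : X) = 1
  nth_rewrite 1 [← h3]
  exact inv_mul_cancel _

/-- Inverted elements in a component. -/
theorem exists_inverted [Finite X] {L A : Subgroup X} (hL : IsComponent L) (hO : pCore 2 X = ⊥)
    (hS3 : ¬ Cfsg.Involves (Equiv.Perm (Fin 3)) X) (hmodel : ModelProp (↥L ⧸ center ↥L))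
    (hA : IsElementaryAbelian 2 A) (hAZ : ∀ a ∈ A, ∀ z : ↥L, z ∈ center ↥L → a * z = z * a)
    {b : X} (hbA : b ∈ A) (hbN : b ∈ normalizer (L : Set X)) (hbC : b ∉ centralizer (L : Set X)) :
    ∃ (t : X) (r e k : ℕ), t ∈ L ∧ r.Prime ∧ r ≠ 2 ∧ e ≠ 0 ∧ b * t * b⁻¹ = t⁻¹ ∧ t ^ r ^ e = 1 ∧
      (∃ v ∈ L, v * t ^ r ^ (e - 1) ≠ t ^ r ^ (e - 1) * v) ∧
      (∀ d, 1 ≤ d → d ≤ 2 * k → ¬ r ^ e ∣ 2 ^ d - 1) ∧
      Nat.card ↥(A ⊓ normalizer (L : Set X)) ^ 2 ≤ 2 ^ (k + 1) * Nat.card ↥(A ⊓ centralizer (L : Set X)) ^ 2 := by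
  set B := A ⊓ normalizer (L : Set X) with hB
  have hBN : B ≤ normalizer (L : Set X) := inf_le_right
  set ψ := secHom L B hBN with hψ
  have hsq : ∀ b' : ↥B, (b' : X) * b' = 1 := by
    intro b'
    rw [← pow_two]
    exact hA.2 _ b'.2.1
  have h1 : ∀ β ∈ ψ.range, β * β = 1 := by
    rintro _ ⟨b', rfl⟩
    rw [← map_mul]
    have : b' * b' = 1 := Subtype.ext (hsq b')
    rw [this, map_one]
  have h3 : ∀ β ∈ ψ.range, ∀ x : ↥L ⧸ center ↥L, orderOf x = 3 → β x = x⁻¹ → β = 1 := by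
    rintro _ ⟨b', rfl⟩ x hx3 hinv
    exfalso
    have hx1 : x ^ 3 = 1 := by rw [← hx3, pow_orderOf_eq_one]
    obtain ⟨t, ht1, ht2, ht3⟩ := lift_inverted hL hO hBN b' (hsq b') (fun z hz => hAZ _ b'.2.1 z hz) x hinv hx1
    apply hS3
    refine Lift.involves_of_inverted (a := (b' : X)) (x := (t : X)) (hsq b') ht1 ?_ ?_
    · have := congrArg Subtype.val ht2
      simpa using this
    · intro h
      have h4 : t = 1 := Subtype.ext h
      rw [h4, QuotientGroup.mk_one] at ht3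
      have h5 : orderOf x ∣ 2 := orderOf_dvd_of_pow_eq_one ht3.symm
      rw [hx3] at h5
      omega
  have hb0 : ψ ⟨b, hbA, hbN⟩ ≠ 1 := fun h => hbC (mem_centralizer_of_secHom hL hBN _ h)
  obtain ⟨x, r, e, k, hr, hr2, he, hinv, hord, hk, hcard⟩ := hmodel ψ.range h1 h3 _ ⟨_, rfl⟩ hb0
  have hxr : x ^ r ^ e = 1 := by rw [← hord, pow_orderOf_eq_one]
  obtain ⟨t, ht1, ht2, ht3⟩ := lift_inverted hL hO hBN ⟨b, hbA, hbN⟩ (hsq _)
    (fun z hz => hAZ _ hbA z hz) x hinv hxr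
  refine ⟨t, r, e, k, t.2, hr, hr2, he, ht1, ?_, ?_, hk, ?_⟩
  · have := congrArg Subtype.val ht2
    simpa using this
  · by_contra hcon
    push Not at hcon
    have hs : t ^ r ^ (e - 1) ∈ center ↥L := by
      rw [Subgroup.mem_center_iff]
      intro v
      apply Subtype.ext
      simpa using hcon v v.2
    rw [← QuotientGroup.eq_one_iff, QuotientGroup.mk_pow, ht3, ← pow_mul] at hs
    have h5 : orderOf x ∣ 2 * r ^ (e - 1) := orderOf_dvd_of_pow_eq_one hs
    rw [hord] at h5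
    have he' : e = (e - 1) + 1 := by omega
    have h6 : r ^ e = r * r ^ (e - 1) := by
      conv_lhs => rw [he']
      rw [pow_succ']
    rw [h6, mul_comm 2] at h5
    have h7 : r ∣ 2 := Nat.dvd_of_mul_dvd_mul_right (pow_pos hr.pos _) (by rwa [mul_comm (r ^ (e - 1)) 2] at h5)
    exact hr2 ((Nat.prime_dvd_prime_iff_eq hr Nat.prime_two).1 h7)
  · rw [card_eq hL (A := A), mul_pow]
    exact Nat.mul_le_mul_right _ hcard

end Cfsg.Agent.Lib.SThreeFree.Lift
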