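import Mathlib

/-!
# Abstract modules for `S₃`-free groups: fixed points and the gain lemma

`V` is a finite abelian group with `v + v = 0`, and `ρ : X →* AddMonoid.End V`.  If `a` is an involution
inverting an element `x` of odd prime power order, `H` a `2`-group commuting with `a` and `x`, and a
power of `x` of prime order acts nontrivially, then `a` moves `C_V(H)` by a large index.
-/

set_option autoImplicit false

namespace Cfsg.Agent.Lib.SThreeFree.Module

variable {X V : Type*} [Group X] [AddCommGroup V] (ρ : X →* AddMonoid.End V)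

/-- The fixed points of a subgroup. -/
def Fix (A : Subgroup X) : AddSubgroup V where
  carrier := {v | ∀ a ∈ A, ρ a v = v}
  zero_mem' := fun a _ => map_zero (ρ a)
  add_mem' := by
    intro v w hv hw a ha
    rw [map_add, hv a ha, hw a ha]
  neg_mem' := by
    intro v hv a ha
    rw [map_neg, hv a ha]

variable {ρ}

lemma mem_Fix {A : Subgroup X} {v : V} : v ∈ Fix ρ A ↔ ∀ a ∈ A, ρ a v = v := Iff.rfl

lemma Fix_anti {A B : Subgroup X} (h : A ≤ B) : Fix ρ B ≤ Fix ρ A :=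
  fun _ hv a ha => hv a (h ha)

lemma rho_mul_apply (g h : X) (v : V) : ρ (g * h) v = ρ g (ρ h v) := by
  rw [map_mul]; rfl

lemma rho_one_apply (v : V) : ρ 1 v = v := by
  rw [map_one]; rfl

lemma rho_inv_apply (g : X) (v : V) : ρ g⁻¹ (ρ g v) = v := by
  rw [← rho_mul_apply, inv_mul_cancel, rho_one_apply]

lemma rho_apply_inv (g : X) (v : V) : ρ g (ρ g⁻¹ v) = v := by
  rw [← rho_mul_apply, mul_inv_cancel, rho_one_apply]

lemma rho_injective (g : X) : Function.Injective (ρ g) := by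
  intro v w h
  have := congrArg (ρ g⁻¹) h
  rwa [rho_inv_apply, rho_inv_apply] at this

lemma rho_sub (g : X) (v w : V) : ρ g (v - w) = ρ g v - ρ g w := map_sub (ρ g) v w

lemma rho_add (g : X) (v w : V) : ρ g (v + w) = ρ g v + ρ g w := map_add (ρ g) v w

lemma rho_zero (g : X) : ρ g (0 : V) = 0 := map_zero (ρ g)

/-- A power of `g` fixes what `g` fixes. -/
lemma rho_pow_fixed {g : X} {v : V} (h : ρ g v = v) (n : ℕ) : ρ (g ^ n) v = v := by
  induction n with
  | zero => rw [pow_zero, rho_one_apply]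
  | succ n ih => rw [pow_succ, rho_mul_apply, h, ih]

/-- The commutator subgroup `[V, g]`. -/
def comm (ρ : X →* AddMonoid.End V) (g : X) : AddSubgroup V where
  carrier := {w | ∃ v, ρ g v - v = w}
  zero_mem' := ⟨0, by rw [rho_zero, sub_zero]⟩
  add_mem' := by
    rintro _ _ ⟨v, rfl⟩ ⟨w, rfl⟩
    exact ⟨v + w, by rw [rho_add]; abel⟩
  neg_mem' := by
    rintro _ ⟨v, rfl⟩
    exact ⟨-v, by rw [map_neg]; abel⟩

lemma mem_comm {g : X} {w : V} : w ∈ comm ρ g ↔ ∃ v, ρ g v - v = w := Iff.rfl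

section Gain

variable [Finite V]

/-- Even order of a nontrivial `2`-torsion group. -/
lemma two_dvd_card_of_ne_bot (hV : ∀ v : V, v + v = 0) {K : AddSubgroup V} (hK : K ≠ ⊥) :
    2 ∣ Nat.card K := by
  obtain ⟨w, hw⟩ := K.ne_bot_iff_exists_ne_zero.1 hK
  have h1 : addOrderOf (w : K) = 2 := by
    refine addOrderOf_eq_prime ?_ hw
    apply Subtype.ext
    show (2 : ℕ) • (w : V) = 0
    rw [two_nsmul, hV]
  rw [← h1]
  exact addOrderOf_dvd_natCard _

/-- The order of a `2`-torsion group is a power of `2`. -/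
lemma card_eq_two_pow (hV : ∀ v : V, v + v = 0) (K : AddSubgroup V) : ∃ d, Nat.card K = 2 ^ d := by
  have hp : IsPGroup 2 (Multiplicative K) := by
    intro g
    refine ⟨1, ?_⟩
    apply Multiplicative.toAdd.injective
    apply Subtype.ext
    show (2 ^ 1 : ℕ) • (Multiplicative.toAdd g : K).1 = 0
    rw [pow_one, two_nsmul, hV]
  haveI : Fact (Nat.Prime 2) := ⟨Nat.prime_two⟩
  obtain ⟨d, hd⟩ := IsPGroup.iff_card.1 hp
  refine ⟨d, ?_⟩
  rw [← hd]
  exact (Nat.card_congr Multiplicative.toAdd).symm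

/-- A `2`-group acting on a nonzero invariant subgroup has a nonzero fixed point. -/
lemma exists_fixed_ne_zero (hV : ∀ v : V, v + v = 0) {H : Subgroup X} (hH : IsPGroup 2 H)
    {K : AddSubgroup V} (hK : K ≠ ⊥) (hinv : ∀ h ∈ H, ∀ v ∈ K, ρ h v ∈ K) :
    ∃ w ∈ K, w ≠ 0 ∧ w ∈ Fix ρ H := by
  classical
  haveI : Fact (Nat.Prime 2) := ⟨Nat.prime_two⟩
  letI act : MulAction ↥H ↥K :=
    { smul := fun h w => ⟨ρ h w, hinv h h.2 w w.2⟩
      one_smul := fun w => Subtype.ext (rho_one_apply _)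
      mul_smul := fun g h w => Subtype.ext (rho_mul_apply _ _ _) }
  have hfix : (0 : ↥K) ∈ MulAction.fixedPoints ↥H ↥K := by
    intro h
    apply Subtype.ext
    exact map_zero (ρ h)
  obtain ⟨b, hb, hb0⟩ := hH.exists_fixed_point_of_prime_dvd_card_of_fixed_point (α := ↥K)
    (two_dvd_card_of_ne_bot hV hK) hfix
  refine ⟨b, b.2, ?_, ?_⟩
  · intro h
    exact hb0 (Subtype.ext h.symm)
  · intro h hh
    have := hb ⟨h, hh⟩
    exact congrArg Subtype.val this

/-- `g` with `g ^ n = 1`, `n` odd, has no nonzero fixed point on `[V, g]`. -/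
lemma eq_zero_of_fixed_of_mem_comm (hV : ∀ v : V, v + v = 0) {g : X} {n : ℕ} (hn : Odd n)
    (hg : g ^ n = 1) {w : V} (hw : w ∈ comm ρ g) (hfix : ρ g w = w) : w = 0 := by
  obtain ⟨v, rfl⟩ := mem_comm.1 hw
  set w := ρ g v - v with hwdef
  have hstep : ∀ j : ℕ, ρ (g ^ j) v = v + j • w := by
    intro j
    induction j with
    | zero => simp [rho_one_apply]
    | succ j ih =>
      rw [pow_succ', rho_mul_apply, ih, rho_add, map_nsmul, hfix, succ_nsmul']
      have : ρ g v = v + w := by rw [hwdef]; abel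
      rw [this]; abel
  have h1 := hstep n
  rw [hg, rho_one_apply] at h1
  have h2 : n • w = 0 := by
    have : v + n • w = v + 0 := by rw [add_zero]; exact h1.symm
    exact add_left_cancel this
  obtain ⟨s, rfl⟩ := hn
  rw [add_nsmul, one_nsmul, mul_nsmul', two_nsmul, hV] at h2
  simpa using h2

/-- If a nontrivial power of `x` (of order dividing `r ^ e`) fixes `w`, so does `x ^ r ^ (e - 1)`. -/
lemma fixed_of_pow {x : X} {r e i : ℕ} (hr : r.Prime) (hxr : x ^ r ^ e = 1) (hi : x ^ i ≠ 1) {w : V}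
    (hw : ρ (x ^ i) w = w) : ρ (x ^ r ^ (e - 1)) w = w := by
  have hi0 : i ≠ 0 := by
    rintro rfl
    exact hi (pow_zero x)
  obtain ⟨s, u, hu, rfl⟩ := Nat.exists_eq_pow_mul_and_not_dvd hi0 r hr.ne_one
  have hse : s < e := by
    by_contra hse
    push Not at hse
    apply hi
    obtain ⟨t, rfl⟩ := Nat.exists_eq_add_of_le hse
    rw [pow_add, mul_assoc, pow_mul, hxr, one_pow]
  have he : e - 1 = s + (e - 1 - s) := by omega
  have h1 : ρ (x ^ r ^ (e - 1)) = ρ (x ^ r ^ (e - 1)) := rfl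
  set z := x ^ r ^ (e - 1) with hz
  have hzr : z ^ r = 1 := by
    rw [hz, ← pow_mul, ← pow_succ]
    have : e - 1 + 1 = e := by omega
    rw [this, hxr]
  have h2 : ρ (z ^ u) w = w := by
    have h3 := rho_pow_fixed hw (r ^ (e - 1 - s))
    have h4 : (x ^ (r ^ s * u)) ^ r ^ (e - 1 - s) = z ^ u := by
      rw [hz, ← pow_mul, ← pow_mul, he]
      congr 1
      rw [pow_add]
      have : s + (e - 1 - s) - s = e - 1 - s := by omega
      ring_nf
      simp only [Nat.add_sub_cancel_left]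
    rwa [h4] at h3
  have hcop : Nat.Coprime u r := ((Nat.Prime.coprime_iff_not_dvd hr).2 hu).symm
  obtain ⟨c, -, hc⟩ := Nat.exists_mul_mod_eq_one_of_coprime hcop hr.one_lt
  have h5 : z ^ (u * c) = z := by
    conv_lhs => rw [← Nat.mod_add_div (u * c) r, pow_add, pow_mul, hzr, one_pow, mul_one, hc, pow_one]
  have h6 := rho_pow_fixed h2 c
  rwa [← pow_mul, h5] at h6

/-- The free action of `⟨x⟩` on a nonzero invariant part of `[V, z]`. -/
lemma prime_pow_dvd_card_sub_one (hV : ∀ v : V, v + v = 0) {x : X} {r e : ℕ} (hr : r.Prime)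
    (hr2 : r ≠ 2) (he : e ≠ 0) (hxr : x ^ r ^ e = 1) (hx1 : x ^ r ^ (e - 1) ≠ 1) {W : AddSubgroup V}
    (hWinv : ∀ v ∈ W, ρ x v ∈ W) (hWK : W ≤ comm ρ (x ^ r ^ (e - 1))) :
    r ^ e ∣ Nat.card W - 1 := by
  classical
  haveI : Fact r.Prime := ⟨hr⟩
  have hord : orderOf x = r ^ e := by
    have he' : e = (e - 1) + 1 := by omega
    rw [he'] at hxr ⊢
    exact orderOf_eq_prime_pow (fun h => hx1 (by simpa using h)) hxr
  have hrodd : Odd r := hr.odd_of_ne_two hr2
  have hzr : (x ^ r ^ (e - 1)) ^ r = 1 := by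
    rw [← pow_mul, ← pow_succ]
    have : e - 1 + 1 = e := by omega
    rw [this, hxr]
  have hfree : ∀ w ∈ W, w ≠ 0 → ∀ i : ℕ, ρ (x ^ i) w = w → x ^ i = 1 := by
    intro w hw hw0 i hi
    by_contra hne
    exact hw0 (eq_zero_of_fixed_of_mem_comm hV hrodd hzr (hWK hw) (fixed_of_pow hr hxr hne hi))
  have hWinvpow : ∀ i : ℕ, ∀ v ∈ W, ρ (x ^ i) v ∈ W := by
    intro i
    induction i with
    | zero => intro v hv; rwa [pow_zero, rho_one_apply]
    | succ i ih => intro v hv; rw [pow_succ', rho_mul_apply]; exact hWinv _ (ih v hv)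
  let β : Type _ := {w : W // w ≠ 0}
  let Z := Subgroup.zpowers x
  have hmemZ : ∀ g : Z, ∃ i : ℕ, (g : X) = x ^ i := by
    intro g
    have hx : IsOfFinOrder x := isOfFinOrder_iff_pow_eq_one.2 ⟨r ^ e, pow_pos hr.pos _, hxr⟩
    have : (g : X) ∈ Submonoid.powers x := by
      rw [hx.mem_powers_iff_mem_zpowers]
      exact g.2
    obtain ⟨i, hi⟩ := this
    exact ⟨i, hi.symm⟩
  have hinvZ : ∀ g : Z, ∀ w ∈ W, ρ (g : X) w ∈ W := by
    intro g w hw
    obtain ⟨i, hi⟩ := hmemZ g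
    rw [hi]
    exact hWinvpow i w hw
  letI act : MulAction Z β :=
    { smul := fun g w => ⟨⟨ρ (g : X) w.1.1, hinvZ g _ w.1.2⟩, by
        intro h
        apply w.2
        apply Subtype.ext
        have h' : ρ (g : X) w.1.1 = 0 := congrArg Subtype.val h
        exact rho_injective (g : X) (h'.trans (rho_zero _).symm)⟩
      one_smul := fun w => Subtype.ext (Subtype.ext (rho_one_apply _))
      mul_smul := fun g h w => Subtype.ext (Subtype.ext (rho_mul_apply _ _ _)) }
  have hstab : ∀ b : β, MulAction.stabilizer Z b = ⊥ := by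
    intro b
    rw [eq_bot_iff]
    intro g hg
    obtain ⟨i, hi⟩ := hmemZ g
    have h1 : ρ (g : X) b.1.1 = b.1.1 := congrArg (fun w : β => w.1.1) (MulAction.mem_stabilizer_iff.1 hg)
    rw [hi] at h1
    have h2 := hfree b.1.1 b.1.2 (fun h => b.2 (Subtype.ext h)) i h1
    rw [Subgroup.mem_bot]
    apply Subtype.ext
    rw [hi, h2]
    rfl
  have hc := Nat.card_congr (MulAction.selfEquivOrbitsQuotientProd (G := Z) (X := β) hstab)
  rw [Nat.card_prod] at hc
  have hZ : Nat.card Z = r ^ e := by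
    rw [Nat.card_zpowers, hord]
  rw [hZ] at hc
  have hβ : Nat.card β = Nat.card W - 1 := by
    have := Nat.card_congr (Equiv.sumCompl (fun w : W => w = 0))
    rw [Nat.card_sum] at this
    have h0 : Nat.card {w : W // w = 0} = 1 := by
      rw [Nat.card_unique]
    rw [h0] at this
    show Nat.card {w : W // ¬ w = 0} = _
    omega
  rw [← hβ, hc]
  exact Dvd.intro_left _ rfl

/-- The gain lemma. -/
theorem gain (hV : ∀ v : V, v + v = 0) {H A : Subgroup X} (hH : IsPGroup 2 H) {a x : X} {r e k : ℕ}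
    (hr : r.Prime) (hr2 : r ≠ 2) (he : e ≠ 0)
    (hax : a * x * a⁻¹ = x⁻¹)
    (hHx : ∀ h ∈ H, h * x = x * h)
    (hxr : x ^ r ^ e = 1) (hz : ρ (x ^ r ^ (e - 1)) ≠ 1)
    (hk : ∀ d, 1 ≤ d → d ≤ 2 * k → ¬ r ^ e ∣ 2 ^ d - 1)
    (hHA : H ≤ A) (haA : a ∈ A) :
    2 ^ (k + 1) * Nat.card (Fix ρ A) ≤ Nat.card (Fix ρ H) := by
  classical
  have hx1 : x ^ r ^ (e - 1) ≠ 1 := by
    intro h
    rw [h, map_one] at hz
    exact hz rfl
  set z := x ^ r ^ (e - 1) with hzdef
  have hrodd : Odd r := hr.odd_of_ne_two hr2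
  have hzr : z ^ r = 1 := by
    rw [hzdef, ← pow_mul, ← pow_succ]
    have : e - 1 + 1 = e := by omega
    rw [this, hxr]
  -- the subgroup `K = [V, z]`
  set K := comm ρ z with hKdef
  have hK0 : K ≠ ⊥ := by
    intro h
    apply hz
    ext v
    have : ρ z v - v ∈ K := ⟨v, rfl⟩
    rw [h, AddSubgroup.mem_bot, sub_eq_zero] at this
    rw [this]
    rfl
  have hHz : ∀ h ∈ H, h * z = z * h := by
    intro h hh
    exact (Commute.pow_right (hHx h hh : Commute h x) _).eq
  have hxz : x * z = z * x := (Commute.pow_right (Commute.refl x) _).eq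
  have hKcomm : ∀ g : X, g * z = z * g → ∀ v ∈ K, ρ g v ∈ K := by
    rintro g hg _ ⟨v, rfl⟩
    refine ⟨ρ g v, ?_⟩
    show ρ z (ρ g v) - ρ g v = ρ g (ρ z v - v)
    rw [rho_sub, ← rho_mul_apply, ← rho_mul_apply, hg]
  obtain ⟨w₀, hw₀K, hw₀, hw₀F⟩ := exists_fixed_ne_zero hV hH hK0
    (fun h hh v hv => hKcomm h (hHz h hh) v hv)
  -- `W₂ = C_V(H) ⊓ K`
  set P := Fix ρ H with hP
  set W₂ := P ⊓ K with hW₂
  have hW₂0 : W₂ ≠ ⊥ := by
    intro h
    have : w₀ ∈ W₂ := ⟨hw₀F, hw₀K⟩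
    rw [h, AddSubgroup.mem_bot] at this
    exact hw₀ this
  have hPx : ∀ v ∈ P, ρ x v ∈ P := by
    intro v hv h hh
    rw [← rho_mul_apply, hHx h hh, rho_mul_apply, hv h hh]
  have hW₂x : ∀ v ∈ W₂, ρ x v ∈ W₂ := fun v hv => ⟨hPx v hv.1, hKcomm x hxz v hv.2⟩
  have hdvd : r ^ e ∣ Nat.card W₂ - 1 :=
    prime_pow_dvd_card_sub_one hV hr hr2 he hxr hx1 hW₂x inf_le_right
  obtain ⟨d, hd⟩ := card_eq_two_pow hV W₂
  have hd0 : d ≠ 0 := by
    rintro rfl
    rw [pow_zero] at hd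
    have : (W₂ : AddSubgroup V) = ⊥ := (AddSubgroup.eq_bot_iff_card _).2 hd
    exact hW₂0 this
  have hd2 : 2 * k + 1 ≤ d := by
    by_contra hlt
    push Not at hlt
    rw [hd] at hdvd
    exact hk d (by omega) (by omega) hdvd
  -- the fixed points of `a`
  let Fa : AddSubgroup V :=
    { carrier := {v | ρ a v = v}
      zero_mem' := rho_zero a
      add_mem' := by
        intro v w hv hw
        show ρ a (v + w) = v + w
        rw [rho_add, hv, hw]
      neg_mem' := by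
        intro v hv
        show ρ a (-v) = -v
        rw [map_neg, hv] }
  set C := W₂ ⊓ Fa with hC
  -- `C ∩ x C = 0`
  have hCx : ∀ c ∈ C, ρ x c ∈ C → c = 0 := by
    intro c hc hxc
    have h1 : ρ a (ρ x c) = ρ x c := hxc.2
    have h2 : ρ a (ρ x c) = ρ x⁻¹ c := by
      have h3 : ρ x⁻¹ c = ρ (a * x * a⁻¹) (ρ a c) := by
        rw [hax, show ρ a c = c from hc.2]
      rw [h3, ← rho_mul_apply, ← rho_mul_apply]
      congr 2
      group
    have h3 : ρ (x * x) c = c := by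
      rw [rho_mul_apply]
      have : ρ x c = ρ x⁻¹ c := h1.symm.trans h2
      rw [this, rho_apply_inv]
    have hzfix : ρ z c = c := by
      have h4 := rho_pow_fixed h3 (r ^ (e - 1))
      have h5 : (x * x) ^ r ^ (e - 1) = z * z := (Commute.refl x).mul_pow _
      rw [h5] at h4
      have h6 := rho_pow_fixed h4 ((r + 1) / 2)
      have h7 : (z * z) ^ ((r + 1) / 2) = z := by
        rw [← pow_two, ← pow_mul]
        have h8 : 2 * ((r + 1) / 2) = r + 1 := by
          obtain ⟨s, rfl⟩ := hrodd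
          omega
        rw [h8, pow_succ, hzr, one_mul]
      rwa [h7] at h6
    exact eq_zero_of_fixed_of_mem_comm hV hrodd hzr hc.1.2 hzfix
  -- `|C|² ≤ |W₂|`
  have hCsq : Nat.card C * Nat.card C ≤ Nat.card W₂ := by
    let f : C × C → W₂ := fun p => ⟨p.1.1 + ρ x p.2.1, W₂.add_mem p.1.2.1 (hW₂x _ p.2.2.1)⟩
    have hf : Function.Injective f := by
      rintro ⟨c₁, d₁⟩ ⟨c₂, d₂⟩ h
      have h1 : c₁.1 + ρ x d₁.1 = c₂.1 + ρ x d₂.1 := congrArg Subtype.val h
      have hneg : ∀ v : V, -v = v := fun v => neg_eq_of_add_eq_zero_left (hV v)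
      have h2 : c₁.1 + c₂.1 = ρ x (d₁.1 + d₂.1) := by
        rw [rho_add]
        have h3 : c₁.1 + ρ x d₁.1 + (c₂.1 + ρ x d₁.1) = c₂.1 + ρ x d₂.1 + (c₂.1 + ρ x d₁.1) := by
          rw [h1]
        have h4 : c₁.1 + ρ x d₁.1 + (c₂.1 + ρ x d₁.1) = c₁.1 + c₂.1 + (ρ x d₁.1 + ρ x d₁.1) := by abel
        have h5 : c₂.1 + ρ x d₂.1 + (c₂.1 + ρ x d₁.1) = (c₂.1 + c₂.1) + (ρ x d₁.1 + ρ x d₂.1) := by abel
        rw [h4, h5, hV, hV, add_zero, zero_add] at h3
        exact h3
      have hd0 : d₁.1 + d₂.1 = 0 := by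
        apply hCx _ (C.add_mem d₁.2 d₂.2)
        rw [← h2]
        exact C.add_mem c₁.2 c₂.2
      have hc0 : c₁.1 + c₂.1 = 0 := by rw [h2, hd0, rho_zero]
      have hd : d₁ = d₂ := by
        apply Subtype.ext
        have := add_eq_zero_iff_eq_neg.1 hd0
        rw [this, hneg]
      have hc' : c₁ = c₂ := by
        apply Subtype.ext
        have := add_eq_zero_iff_eq_neg.1 hc0
        rw [this, hneg]
      rw [hd, hc']
    have := Nat.card_le_card_of_injective f hf
    rwa [Nat.card_prod] at this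
  -- the index
  have hCW : C ≤ W₂ := inf_le_left
  have hidx : Nat.card C * C.relIndex W₂ = Nat.card W₂ := by
    rw [AddSubgroup.relIndex, ← Nat.card_congr (AddSubgroup.addSubgroupOfEquivOfLe hCW).toEquiv]
    exact AddSubgroup.card_mul_index _
  set P' := P ⊓ Fa with hP'
  have hP'P : P' ≤ P := inf_le_left
  have hidxP : Nat.card P' * P'.relIndex P = Nat.card P := by
    rw [AddSubgroup.relIndex, ← Nat.card_congr (AddSubgroup.addSubgroupOfEquivOfLe hP'P).toEquiv]
    exact AddSubgroup.card_mul_index _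
  have hFA : Fix ρ A ≤ P' := by
    intro v hv
    exact ⟨fun h hh => hv h (hHA hh), hv a haA⟩
  have hC' : C = P' ⊓ W₂ := by
    rw [hC, hP']
    ext v
    constructor
    · intro hv
      exact ⟨⟨hv.1.1, hv.2⟩, hv.1⟩
    · intro hv
      exact ⟨hv.2, hv.1.2⟩
  have hrel : C.relIndex W₂ = P'.relIndex W₂ := by
    rw [hC']
    exact AddSubgroup.inf_relIndex_right _ _
  have hrel0 : P'.relIndex P ≠ 0 := by
    have : 0 < Nat.card P := Nat.card_pos
    rw [← hidxP] at this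
    exact (Nat.pos_of_mul_pos_left this).ne' 
  have hle : P'.relIndex W₂ ≤ P'.relIndex P := AddSubgroup.relIndex_le_of_le_right inf_le_left hrel0
  -- the arithmetic
  have hi : 2 ^ (k + 1) ≤ C.relIndex W₂ := by
    have hdv : C.relIndex W₂ ∣ 2 ^ d := ⟨Nat.card C, by rw [← hd, ← hidx, mul_comm]⟩
    obtain ⟨j, -, hj⟩ := (Nat.dvd_prime_pow Nat.prime_two).1 hdv
    rw [hj]
    apply Nat.pow_le_pow_right (by norm_num)
    by_contra hlt
    push Not at hlt
    have hjk : 2 * j + 1 ≤ d := by omega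
    have h1 : Nat.card C * 2 ^ j = 2 ^ d := by rw [← hd, ← hidx, hj]
    have h2 : Nat.card C * Nat.card C ≤ 2 ^ d := hd ▸ hCsq
    have h3 : 2 ^ j * 2 ^ j * 2 ^ (d - 2 * j) = 2 ^ d := by
      rw [← pow_add, ← pow_add]
      congr 1
      omega
    have hpos : 0 < 2 ^ j := by positivity
    have h4 : Nat.card C = 2 ^ j * 2 ^ (d - 2 * j) := by
      apply Nat.eq_of_mul_eq_mul_right hpos
      rw [h1, ← h3]
      ring
    have h5 : 2 ^ j * 2 ^ (d - 2 * j) * (2 ^ j * 2 ^ (d - 2 * j)) ≤ 2 ^ j * 2 ^ j * 2 ^ (d - 2 * j) := by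
      rw [h3, ← h4]
      exact h2
    have h6 : 2 ≤ 2 ^ (d - 2 * j) := by
      calc 2 = 2 ^ 1 := (pow_one 2).symm
        _ ≤ 2 ^ (d - 2 * j) := Nat.pow_le_pow_right (by norm_num) (by omega)
    have hpos2 : 0 < 2 ^ j * 2 ^ j * 2 ^ (d - 2 * j) := by positivity
    nlinarith
  calc 2 ^ (k + 1) * Nat.card (Fix ρ A)
      ≤ P'.relIndex P * Nat.card P' := by
        apply Nat.mul_le_mul
        · exact (hi.trans_eq hrel).trans hle
        · exact AddSubgroup.card_le_of_le hFA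
    _ = Nat.card P := by rw [mul_comm, hidxP]

end Gain

end Cfsg.Agent.Lib.SThreeFree.Module
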