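import Mathlib
import Cfsg.Agent.Lib.SThreeFree.Module
import Cfsg.Agent.Lib.SThreeFree.Lift
import Cfsg.Agent.Lib.CoprimeGen.Basic
import Cfsg.Agent.Lib.Components.GenFitting
import Cfsg.Agent.Lib.Components.CommAct

/-!
# The fixed point bound: one step

`A` an elementary abelian `2`-subgroup of the faithful `S₃`-free group `X`, `O₂(X) = 1`: there is a proper subgroup
`H` of `A` with `|A|² |C_V(A)| ≤ |H|² |C_V(H)|`.
-/

set_option autoImplicit false

namespace Cfsg.Agent.Lib.SThreeFree.Comp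

open Cfsg Subgroup
open Cfsg.Agent.Lib.SThreeFree.Module Cfsg.Agent.Lib.SThreeFree.Lift Cfsg.Agent.Lib.SThreeFree.Model
open Cfsg.Agent.Lib.Components.Basic
open scoped commutatorElement

variable {X V : Type*} [Group X] [AddCommGroup V] {ρ : X →* AddMonoid.End V}

/-- The potential. -/
noncomputable def Φ (ρ : X →* AddMonoid.End V) (A : Subgroup X) : ℕ :=
  Nat.card A ^ 2 * Nat.card (Fix ρ A)

lemma isPGroup_of_sq {H : Subgroup X} (hH : ∀ h ∈ H, h ^ 2 = 1) : IsPGroup 2 H := by
  intro h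
  refine ⟨1, ?_⟩
  apply Subtype.ext
  simpa using hH h h.2

section Gain4

variable [Finite V]

/-- An inverted element commuting with `H` gives a gain of `4`. -/
theorem gain4 (hV : ∀ v : V, v + v = 0) (hρ : Function.Injective ρ)
    (hS3 : ¬ Cfsg.Involves (Equiv.Perm (Fin 3)) X) {H A : Subgroup X} (hH : IsPGroup 2 H) {a x : X}
    (haa : a * a = 1) (hax : a * x * a⁻¹ = x⁻¹) (hHx : ∀ h ∈ H, h * x = x * h) (hx1 : x ≠ 1) {n : ℕ}
    (hn : Odd n) (hxn : x ^ n = 1) (hHA : H ≤ A) (haA : a ∈ A) :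
    4 * Nat.card (Fix ρ A) ≤ Nat.card (Fix ρ H) := by
  have ho : orderOf x ∣ n := orderOf_dvd_of_pow_eq_one hxn
  have ho1 : orderOf x ≠ 1 := fun h => hx1 (orderOf_eq_one_iff.1 h)
  have ho0 : orderOf x ≠ 0 := by
    intro h
    rw [h, zero_dvd_iff] at ho
    rw [ho] at hn
    exact Nat.not_odd_zero hn
  set r := (orderOf x).minFac with hr
  have hrp : r.Prime := Nat.minFac_prime ho1
  have hro : r ∣ orderOf x := Nat.minFac_dvd _
  have hr2 : r ≠ 2 := by
    intro h
    rw [h] at hro
    have : 2 ∣ n := dvd_trans hro ho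
    exact (Nat.not_even_iff_odd.2 hn) (even_iff_two_dvd.2 this)
  set y := x ^ (orderOf x / r) with hy
  have hyord : orderOf y = r := orderOf_pow_orderOf_div ho0 hro
  have hy1 : y ≠ 1 := by
    intro h
    rw [h, orderOf_one] at hyord
    exact hrp.one_lt.ne hyord
  have hay : a * y * a⁻¹ = y⁻¹ := by
    rw [hy, ← conj_pow, hax, inv_pow]
  have hyr : y ^ r ^ 1 = 1 := by
    rw [pow_one, ← hyord, pow_orderOf_eq_one]
  have hr3 : r ≠ 3 := by
    intro h
    apply hS3
    refine involves_of_inverted haa hay ?_ hy1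
    rw [← h]
    rwa [pow_one] at hyr
  have hHy : ∀ h ∈ H, h * y = y * h := fun h hh =>
    (Commute.pow_right (hHx h hh : Commute h x) _).eq
  have hz : ρ (y ^ r ^ (1 - 1)) ≠ 1 := by
    intro h
    apply hy1
    apply hρ
    rw [map_one]
    simpa using h
  have h := gain (ρ := ρ) hV (k := 1) hH hrp hr2 one_ne_zero hay hHy hyr hz
    (by
      intro d hd1 hd2 hd
      rw [pow_one] at hd
      have hd' : d = 1 ∨ d = 2 := by omega
      rcases hd' with rfl | rfl
      · exact hrp.one_lt.ne' (Nat.dvd_one.1 (by simpa using hd))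
      · exact hr3 ((Nat.prime_dvd_prime_iff_eq hrp Nat.prime_three).1 (by simpa using hd)))
    hHA haA
  simpa using h

end Gain4

section CaseA

variable [Finite X] [Finite V]

/-- **Case A**: `A` does not centralize `O(X)`. -/
theorem exists_of_not_centralizes_odd (hV : ∀ v : V, v + v = 0) (hρ : Function.Injective ρ)
    (hS3 : ¬ Cfsg.Involves (Equiv.Perm (Fin 3)) X) {A : Subgroup X} (hA : IsElementaryAbelian 2 A)
    (hAR : ¬ ∀ a ∈ A, ∀ c ∈ pPrimeCore 2 X, a * c = c * a) :
    ∃ H, H < A ∧ Φ ρ A ≤ Φ ρ H := by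
  classical
  haveI : Fact (Nat.Prime 2) := ⟨Nat.prime_two⟩
  set R := pPrimeCore 2 X with hR
  have hRn : R.Normal := inferInstance
  have hRodd : (Nat.card R).Coprime 2 := Cfsg.Agent.Lib.Core.Basic.pPrimeCore_coprime
  have hRnd : ¬ 2 ∣ Nat.card R := fun h => by
    have := Nat.Coprime.eq_one_of_dvd hRodd.symm h
    omega
  have hjoin := Cfsg.Agent.Lib.CoprimeGen.Basic.eq_hyperJoin (p := 2) hA hRnd
    (by rw [Subgroup.normalizer_eq_top R]; exact le_top)
  have hsq : ∀ a ∈ A, a * a = 1 := fun a ha => by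
    rw [← pow_two]
    exact hA.2 a ha
  have hcomm : ∀ a ∈ A, ∀ b ∈ A, a * b = b * a := fun a ha b hb => by
    have h := hA.1.is_comm.comm ⟨a, ha⟩ ⟨b, hb⟩
    exact congrArg Subtype.val h
  obtain ⟨B, hBA, hBi, c, hcR, hcB, hcA⟩ : ∃ B : Subgroup X, B ≤ A ∧ B.relIndex A ≤ 2 ∧ ∃ c ∈ R,
      c ∈ centralizer (B : Set X) ∧ c ∉ centralizer (A : Set X) := by
    by_contra hcon
    push Not at hcon
    apply hAR
    have h1 : R ≤ centralizer (A : Set X) := by
      rw [hjoin]
      refine iSup_le ?_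
      rintro ⟨B, hB1, hB2⟩
      intro c hc
      exact hcon B hB1 hB2 c hc.1 hc.2
    intro a ha c hc
    exact Subgroup.mem_centralizer_iff.1 (h1 hc) a ha
  obtain ⟨a, haA, hac⟩ : ∃ a ∈ A, a * c ≠ c * a := by
    by_contra hcon
    push Not at hcon
    exact hcA (Subgroup.mem_centralizer_iff.2 hcon)
  have hcomB : ∀ h ∈ B, h * c = c * h := Subgroup.mem_centralizer_iff.1 hcB
  have haB : a ∉ B := fun h => hac (hcomB a h)
  refine ⟨B, lt_of_le_of_ne hBA (fun h => haB (h ▸ haA)), ?_⟩
  -- the element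
  set y := c⁻¹ * (a * c * a⁻¹) with hy
  have hainv : a⁻¹ = a := inv_eq_of_mul_eq_one_left (hsq a haA)
  have hy1 : y ≠ 1 := by
    intro h
    apply hac
    rw [hy, inv_mul_eq_one] at h
    have : c * a = a * c * a⁻¹ * a := by rw [← h]
    rw [this]
    group
  have hyR : y ∈ R := R.mul_mem (R.inv_mem hcR) (hRn.conj_mem c hcR a)
  have hyn : y ^ Nat.card R = 1 := by
    have := pow_card_eq_one' (x := (⟨y, hyR⟩ : R))
    exact congrArg Subtype.val this
  have hodd : Odd (Nat.card R) := by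
    rw [← Nat.not_even_iff_odd, even_iff_two_dvd]
    exact hRnd
  have hay : a * y * a⁻¹ = y⁻¹ := by
    rw [hy, mul_inv_rev, inv_inv]
    simp only [hainv]
    have : a * a = 1 := hsq a haA
    calc a * (c⁻¹ * (a * c * a)) * a = a * c⁻¹ * a * c * (a * a) := by group
      _ = a * c⁻¹ * a * c := by rw [this, mul_one]
      _ = a⁻¹ * c⁻¹ * a⁻¹ * c := by rw [hainv]
      _ = _ := by group
  have hBy : ∀ h ∈ B, h * y = y * h := by
    intro h hh
    have h1 : h * c = c * h := hcomB h hh
    have h2 : h * a = a * h := hcomm h (hBA hh) a haA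
    have h3 : h * c⁻¹ = c⁻¹ * h := by
      have := (Commute.inv_right (h1 : Commute h c)).eq
      exact this
    have h4 : h * a⁻¹ = a⁻¹ * h := (Commute.inv_right (h2 : Commute h a)).eq
    rw [hy]
    calc h * (c⁻¹ * (a * c * a⁻¹)) = (h * c⁻¹) * (a * c * a⁻¹) := by group
      _ = c⁻¹ * (h * a) * c * a⁻¹ := by rw [h3]; group
      _ = c⁻¹ * a * (h * c) * a⁻¹ := by rw [h2]; group
      _ = c⁻¹ * a * c * (h * a⁻¹) := by rw [h1]; group
      _ = _ := by rw [h4]; group
  have hBp : IsPGroup 2 B := isPGroup_of_sq (fun h hh => hA.2 h (hBA hh))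
  have hg := gain4 (ρ := ρ) hV hρ hS3 hBp (hsq a haA) hay hBy hy1 hodd hyn hBA haA
  -- the orders
  have hcard : Nat.card A ≤ 2 * Nat.card B := by
    have h1 : Nat.card (B.subgroupOf A) * B.relIndex A = Nat.card A := Subgroup.card_mul_index _
    have h2 : Nat.card (B.subgroupOf A) = Nat.card B :=
      Nat.card_congr (Subgroup.subgroupOfEquivOfLe hBA).toEquiv
    rw [h2] at h1
    calc Nat.card A = Nat.card B * B.relIndex A := h1.symm
      _ ≤ Nat.card B * 2 := Nat.mul_le_mul_left _ hBi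
      _ = 2 * Nat.card B := mul_comm _ _
  calc Nat.card A ^ 2 * Nat.card (Fix ρ A)
      ≤ (2 * Nat.card B) ^ 2 * Nat.card (Fix ρ A) := Nat.mul_le_mul_right _ (Nat.pow_le_pow_left hcard 2)
    _ = Nat.card B ^ 2 * (4 * Nat.card (Fix ρ A)) := by ring
    _ ≤ Nat.card B ^ 2 * Nat.card (Fix ρ B) := Nat.mul_le_mul_left _ hg

end CaseA

section CaseB

/-- The conjugate `d L d⁻¹`. -/
abbrev cj (d : X) (L : Subgroup X) : Subgroup X := L.map (MulAut.conj d).toMonoidHom

lemma cj_cj (a d : X) (L : Subgroup X) : cj a (cj d L) = cj (a * d) L := by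
  show (L.map (MulAut.conj d).toMonoidHom).map (MulAut.conj a).toMonoidHom = L.map (MulAut.conj (a * d)).toMonoidHom
  rw [Subgroup.map_map]
  congr 1
  ext g
  simp [mul_assoc]

lemma conj_mem_cj {a g : X} {L : Subgroup X} (hg : g ∈ L) : a * g * a⁻¹ ∈ cj a L :=
  ⟨g, hg, rfl⟩

/-- The join of the conjugates of `L` under `H`. -/
def Qj (L H : Subgroup X) : Subgroup X := ⨆ d : ↥H, cj (d : X) L

lemma cj_le_Qj {L H : Subgroup X} {d : X} (hd : d ∈ H) : cj d L ≤ Qj L H :=
  le_iSup (fun d : ↥H => cj (d : X) L) ⟨d, hd⟩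

lemma le_Qj {L H : Subgroup X} : L ≤ Qj L H := by
  have h := cj_le_Qj (L := L) (H := H) (d := 1) H.one_mem
  intro g hg
  apply h
  exact ⟨g, hg, by simp⟩

lemma Qj_mono {L H H' : Subgroup X} (h : H ≤ H') : Qj L H ≤ Qj L H' :=
  iSup_le fun d => cj_le_Qj (h d.2)

/-- Conjugating `Qj`. -/
lemma conj_Qj_le {L H H' : Subgroup X} {a : X} (h : ∀ d ∈ H, a * d ∈ H') {y : X} (hy : y ∈ Qj L H) :
    a * y * a⁻¹ ∈ Qj L H' := by
  have h1 : Qj L H ≤ (Qj L H').comap (MulAut.conj a).toMonoidHom := by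
    refine iSup_le fun d => ?_
    rw [← Subgroup.map_le_iff_le_comap]
    have h2 : (cj (d : X) L).map (MulAut.conj a).toMonoidHom = cj (a * d) L := cj_cj a d L
    rw [h2]
    exact cj_le_Qj (h d d.2)
  exact h1 hy

/-- Two conjugates of `L` which are separated commute. -/
lemma Qj_comm {L A H : Subgroup X} (hL : IsComponent L) (hH : H ≤ A) {a : X} (ha : a ∈ A)
    (hcomm : ∀ x ∈ A, ∀ y ∈ A, x * y = y * x) (hsep : ∀ h ∈ H, h * a ∉ normalizer (L : Set X))
    {y y' : X} (hy : y ∈ Qj L H) (hy' : y' ∈ Qj L H) : y * (a * y' * a⁻¹) = (a * y' * a⁻¹) * y := by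
  -- the pieces commute
  have key : ∀ d ∈ H, ∀ d' ∈ H, cj (a * d') L ≤ centralizer (cj d L : Set X) := by
    intro d hd d' hd'
    have hc1 : IsComponent (cj d L) := isComponent_conj d hL
    have hc2 : IsComponent (cj (a * d') L) := isComponent_conj (a * d') hL
    rcases component_eq_or_commutator_eq_bot hc2 hc1 with h | h
    · exfalso
      apply hsep (d⁻¹ * d') (H.mul_mem (H.inv_mem hd) hd')
      have hda : d⁻¹ * d' * a = d⁻¹ * (a * d') := by
        rw [mul_assoc, hcomm d' (hH hd') a ha]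
      have h2 : cj (d⁻¹ * (a * d')) L = L := by
        rw [← cj_cj, h, cj_cj, inv_mul_cancel]
        ext g
        simp
      rw [hda]
      intro g
      constructor
      · intro hg
        rw [← h2]
        exact ⟨g, hg, rfl⟩
      · intro hg
        rw [← h2] at hg
        obtain ⟨g', hg', hgg⟩ := hg
        have : g' = g := by
          have h3 : (d⁻¹ * (a * d')) * g' * (d⁻¹ * (a * d'))⁻¹ = (d⁻¹ * (a * d')) * g * (d⁻¹ * (a * d'))⁻¹ := hgg
          simpa using h3
        rwa [← this]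
    · exact Subgroup.commutator_eq_bot_iff_le_centralizer.1 h
  have h1 : Qj L H ≤ centralizer ((Qj L H).map (MulAut.conj a).toMonoidHom : Set X) := by
    refine iSup_le fun d => ?_
    rw [Subgroup.le_centralizer_iff]
    have h2 : (Qj L H).map (MulAut.conj a).toMonoidHom ≤ centralizer (cj (d : X) L : Set X) := by
      rw [Subgroup.map_le_iff_le_comap]
      refine iSup_le fun d' => ?_
      rw [← Subgroup.map_le_iff_le_comap]
      have h3 : (cj (d' : X) L).map (MulAut.conj a).toMonoidHom = cj (a * d') L := cj_cj a d' L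
      rw [h3]
      exact key d d.2 d' d'.2
    exact h2
  have h4 := Subgroup.mem_centralizer_iff.1 (h1 hy) (a * y' * a⁻¹) ⟨y', hy', rfl⟩
  exact h4.symm

/-- The predicate for the inductive construction. -/
structure Good (ρ : X →* AddMonoid.End V) (L A H : Subgroup X) : Prop where
  le_A : H ≤ A
  bot_le : A ⊓ centralizer (L : Set X) ≤ H
  inter : ∀ g ∈ H, g ∈ normalizer (L : Set X) → g ∈ centralizer (L : Set X)
  phi : Φ ρ H ≤ Φ ρ (A ⊓ centralizer (L : Set X))
  diag : ∀ t ∈ L, ∃ y, t⁻¹ * y ∈ centralizer (L : Set X) ∧ (∀ h ∈ H, h * y = y * h) ∧ y ∈ Qj L H ∧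
    (∀ n : ℕ, t ^ n = 1 → y ^ n = 1) ∧ ∀ b ∈ A, b * t * b⁻¹ = t⁻¹ → b * y * b⁻¹ = y⁻¹

/-- The base case. -/
lemma good_base (ρ : X →* AddMonoid.End V) (L A : Subgroup X) :
    Good ρ L A (A ⊓ centralizer (L : Set X)) where
  le_A := inf_le_left
  bot_le := le_rfl
  inter := fun g hg _ => hg.2
  phi := le_rfl
  diag := by
    intro t ht
    refine ⟨t, ?_, ?_, le_Qj ht, fun n hn => hn, fun b _ hb => hb⟩
    · rw [inv_mul_cancel]
      exact Subgroup.one_mem _
    · intro h hh
      exact (Subgroup.mem_centralizer_iff.1 hh.2 t ht).symm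

lemma comm_of_mul_mem {H : Subgroup X} {a g : X} (haa : a * a = 1) (hc : ∀ h ∈ H, a * h = h * a)
    (hg : a * g ∈ H) : a * g = g * a := by
  have h1 := hc _ hg
  have h2 : a * (a * g) = g := by rw [← mul_assoc, haa, one_mul]
  rw [h2] at h1
  calc a * g = a * g * (a * a) := by rw [haa, mul_one]
    _ = a * g * a * a := by rw [mul_assoc (a * g)]
    _ = g * a := by rw [← h1]

/-- Adjoining a commuting involution. -/
def adj (H : Subgroup X) (a : X) (haa : a * a = 1) (hc : ∀ h ∈ H, a * h = h * a) : Subgroup X where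
  carrier := {g | g ∈ H ∨ a * g ∈ H}
  mul_mem' := by
    rintro g g' (hg | hg) (hg' | hg')
    · exact Or.inl (H.mul_mem hg hg')
    · refine Or.inr ?_
      have : a * (g * g') = g * (a * g') := by
        rw [← mul_assoc, hc g hg, mul_assoc]
      rw [this]
      exact H.mul_mem hg hg'
    · refine Or.inr ?_
      rw [← mul_assoc]
      exact H.mul_mem hg hg'
    · refine Or.inl ?_
      have : g * g' = (a * g) * (a * g') := by
        calc g * g' = g * (a * a) * g' := by rw [haa, mul_one]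
          _ = (g * a) * (a * g') := by group
          _ = (a * g) * (a * g') := by rw [comm_of_mul_mem haa hc hg]
      rw [this]
      exact H.mul_mem hg hg'
  one_mem' := Or.inl H.one_mem
  inv_mem' := by
    rintro g (hg | hg)
    · exact Or.inl (H.inv_mem hg)
    · refine Or.inr ?_
      have h1 := H.inv_mem hg
      have h3 : a⁻¹ = a := inv_eq_of_mul_eq_one_left haa
      have h4 : Commute a g := comm_of_mul_mem haa hc hg
      have h2 : a * g⁻¹ = (a * g)⁻¹ := by
        rw [mul_inv_rev, h3]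
        exact h4.inv_right.eq
      rwa [h2]

lemma mem_adj {H : Subgroup X} {a : X} {haa : a * a = 1} {hc : ∀ h ∈ H, a * h = h * a} {g : X} :
    g ∈ adj H a haa hc ↔ g ∈ H ∨ a * g ∈ H := Iff.rfl

lemma card_adj_le [Finite X] (H : Subgroup X) (a : X) (haa : a * a = 1) (hc : ∀ h ∈ H, a * h = h * a) :
    Nat.card (adj H a haa hc) ≤ 2 * Nat.card H := by
  classical
  let f : adj H a haa hc → H × Bool := fun g =>
    if h : (g : X) ∈ H then (⟨g, h⟩, true) else (⟨a * g, g.2.resolve_left h⟩, false)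
  have hf : Function.Injective f := by
    intro g g' h
    by_cases h1 : (g : X) ∈ H <;> by_cases h2 : (g' : X) ∈ H
    · simp only [f, dif_pos h1, dif_pos h2] at h
      have := congrArg (fun p : H × Bool => (p.1 : X)) h
      exact Subtype.ext this
    · simp [f, dif_pos h1, dif_neg h2] at h
    · simp [f, dif_neg h1, dif_pos h2] at h
    · simp only [f, dif_neg h1, dif_neg h2] at h
      have := congrArg (fun p : H × Bool => (p.1 : X)) h
      exact Subtype.ext (mul_left_cancel this)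
  have h3 := Nat.card_le_card_of_injective f hf
  rw [Nat.card_prod, Nat.card_eq_fintype_card (α := Bool), Fintype.card_bool, mul_comm] at h3
  exact h3

variable [Finite X] [Finite V]

/-- One step of the construction. -/
theorem good_step (hV : ∀ v : V, v + v = 0) (hρ : Function.Injective ρ)
    (hS3 : ¬ Cfsg.Involves (Equiv.Perm (Fin 3)) X) {L A H : Subgroup X} (hL : IsComponent L)
    (hA : IsElementaryAbelian 2 A) (hG : Good ρ L A H) {a : X} (ha : a ∈ A)
    (hsep : ∀ h ∈ H, h * a ∉ normalizer (L : Set X)) {t₀ : X} (ht₀ : t₀ ∈ L) {n : ℕ} (hn : Odd n)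
    (ht₀n : t₀ ^ n = 1) {v : X} (hv : v ∈ L) (hvt : v * t₀ ≠ t₀ * v) :
    ∃ H', H < H' ∧ Good ρ L A H' := by
  have hsq : ∀ x ∈ A, x * x = 1 := fun x hx => by
    rw [← pow_two]
    exact hA.2 x hx
  have hcomm : ∀ x ∈ A, ∀ y ∈ A, x * y = y * x := fun x hx y hy => by
    have h := hA.1.is_comm.comm ⟨x, hx⟩ ⟨y, hy⟩
    exact congrArg Subtype.val h
  have haa := hsq a ha
  have hc : ∀ h ∈ H, a * h = h * a := fun h hh => hcomm a ha h (hG.le_A hh)
  have haH : a ∉ H := fun h => hsep a h (by rw [haa]; exact Subgroup.one_mem _)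
  set H' := adj H a haa hc with hH'
  have hHH' : H ≤ H' := fun g hg => Or.inl hg
  have haH' : a ∈ H' := Or.inr (by rw [haa]; exact H.one_mem)
  have hainv : a⁻¹ = a := inv_eq_of_mul_eq_one_left haa
  have hcommQ : ∀ y y', y ∈ Qj L H → y' ∈ Qj L H → y * (a * y' * a⁻¹) = (a * y' * a⁻¹) * y :=
    fun _ _ hy hy' => Qj_comm hL hG.le_A ha hcomm hsep hy hy'
  have hcommL : ∀ l ∈ L, ∀ y ∈ Qj L H, l * (a * y * a⁻¹) = (a * y * a⁻¹) * l :=
    fun l hl y hy => hcommQ _ _ (le_Qj hl) hy
  have hbase : ∀ g, a * g ∈ H → g = a * (a * g) := fun g _ => by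
    rw [← mul_assoc, haa, one_mul]
  refine ⟨H', lt_of_le_of_ne hHH' (fun h => haH (h ▸ haH')), ?_, ?_, ?_, ?_, ?_⟩
  · -- `le_A`
    rintro g (hg | hg)
    · exact hG.le_A hg
    · rw [hbase g hg]
      exact A.mul_mem ha (hG.le_A hg)
  · -- `bot_le`
    exact hG.bot_le.trans hHH'
  · -- `inter`
    rintro g (hg | hg) hN
    · exact hG.inter g hg hN
    · exfalso
      apply hsep _ hg
      have h1 : a * g * a = g := by
        rw [comm_of_mul_mem haa hc hg, mul_assoc, haa, mul_one]
      rwa [h1]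
  · -- `phi`
    obtain ⟨y, hy1, hy2, hy3, hy4, -⟩ := hG.diag t₀ ht₀
    have hyn := hy4 n ht₀n
    set z := a * y * a⁻¹ with hz
    have hyz : y * z = z * y := hcommQ y y hy3 hy3
    have hLz : ∀ l ∈ L, l * z = z * l := fun l hl => hcommL l hl y hy3
    have hx1 : y * z⁻¹ ≠ 1 := by
      intro h
      have hyz' : y = z := by
        rw [mul_inv_eq_one] at h
        exact h
      apply hvt
      have h1 : v * (t₀⁻¹ * y) = (t₀⁻¹ * y) * v := Subgroup.mem_centralizer_iff.1 hy1 v hv
      have h2 : v * y = y * v := by rw [hyz']; exact hLz v hv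
      have h3 : t₀ = y * (t₀⁻¹ * y)⁻¹ := by group
      have h4 : v * (t₀⁻¹ * y)⁻¹ = (t₀⁻¹ * y)⁻¹ * v := (Commute.inv_right (h1 : Commute v _)).eq
      rw [h3]
      calc v * (y * (t₀⁻¹ * y)⁻¹) = (v * y) * (t₀⁻¹ * y)⁻¹ := by rw [mul_assoc]
        _ = y * (v * (t₀⁻¹ * y)⁻¹) := by rw [h2, mul_assoc]
        _ = y * (t₀⁻¹ * y)⁻¹ * v := by rw [h4, mul_assoc]
    have hzn : z ^ n = 1 := by
      rw [hz, conj_pow, hyn]
      group
    have hxn : (y * z⁻¹) ^ n = 1 := by
      have hcm : Commute y z⁻¹ := (Commute.inv_right (hyz : Commute y z))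
      rw [hcm.mul_pow, hyn, inv_pow, hzn]
      simp
    have hax : a * (y * z⁻¹) * a⁻¹ = (y * z⁻¹)⁻¹ := by
      have h1 : a * z⁻¹ * a⁻¹ = y⁻¹ := by
        calc a * z⁻¹ * a⁻¹ = (a * a) * y⁻¹ * (a * a)⁻¹ := by rw [hz]; group
          _ = y⁻¹ := by rw [haa]; group
      calc a * (y * z⁻¹) * a⁻¹ = (a * y * a⁻¹) * (a * z⁻¹ * a⁻¹) := by group
        _ = z * y⁻¹ := by rw [h1]
        _ = _ := by group
    have hHx : ∀ h ∈ H, h * (y * z⁻¹) = (y * z⁻¹) * h := by
      intro h hh
      have h1 : h * y = y * h := hy2 h hh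
      have h2 : h * a = a * h := (hc h hh).symm
      have h3 : h * a⁻¹ = a⁻¹ * h := (Commute.inv_right (h2 : Commute h a)).eq
      have h4 : h * z = z * h := by
        rw [hz]
        calc h * (a * y * a⁻¹) = (h * a) * y * a⁻¹ := by group
          _ = a * (h * y) * a⁻¹ := by rw [h2]; group
          _ = a * y * (h * a⁻¹) := by rw [h1]; group
          _ = _ := by rw [h3]; group
      have h5 : h * z⁻¹ = z⁻¹ * h := (Commute.inv_right (h4 : Commute h z)).eq
      calc h * (y * z⁻¹) = (h * y) * z⁻¹ := by group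
        _ = y * (h * z⁻¹) := by rw [h1]; group
        _ = _ := by rw [h5]; group
    have hHp : IsPGroup 2 H := isPGroup_of_sq (fun h hh => hA.2 h (hG.le_A hh))
    have hg := gain4 (ρ := ρ) hV hρ hS3 hHp haa hax hHx hx1 hn hxn hHH' haH'
    have hcard : Nat.card H' ≤ 2 * Nat.card H := card_adj_le H a haa hc
    refine le_trans ?_ hG.phi
    calc Nat.card H' ^ 2 * Nat.card (Fix ρ H')
        ≤ (2 * Nat.card H) ^ 2 * Nat.card (Fix ρ H') := Nat.mul_le_mul_right _ (Nat.pow_le_pow_left hcard 2)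
      _ = Nat.card H ^ 2 * (4 * Nat.card (Fix ρ H')) := by ring
      _ ≤ Nat.card H ^ 2 * Nat.card (Fix ρ H) := Nat.mul_le_mul_left _ hg
  · -- `diag`
    intro t ht
    obtain ⟨y, hy1, hy2, hy3, hy4, hy5⟩ := hG.diag t ht
    set z := a * y * a⁻¹ with hz
    have hyz : y * z = z * y := hcommQ y y hy3 hy3
    have hLz : ∀ l ∈ L, l * z = z * l := fun l hl => hcommL l hl y hy3
    refine ⟨y * z, ?_, ?_, ?_, ?_, ?_⟩
    · rw [← mul_assoc]
      refine Subgroup.mul_mem _ hy1 ?_
      exact Subgroup.mem_centralizer_iff.2 hLz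
    · have hHC : ∀ h ∈ H, h * (y * z) = (y * z) * h := by
        intro h hh
        have h1 : h * y = y * h := hy2 h hh
        have h2 : h * a = a * h := (hc h hh).symm
        have h3 : h * a⁻¹ = a⁻¹ * h := (Commute.inv_right (h2 : Commute h a)).eq
        have h4 : h * z = z * h := by
          rw [hz]
          calc h * (a * y * a⁻¹) = (h * a) * y * a⁻¹ := by group
            _ = a * (h * y) * a⁻¹ := by rw [h2]; group
            _ = a * y * (h * a⁻¹) := by rw [h1]; group
            _ = _ := by rw [h3]; group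
        calc h * (y * z) = (h * y) * z := by group
          _ = y * (h * z) := by rw [h1]; group
          _ = _ := by rw [h4]; group
      have haC : a * (y * z) = (y * z) * a := by
        have h1 : a * z = y * a := by
          rw [hz, hainv]
          calc a * (a * y * a) = (a * a) * y * a := by group
            _ = y * a := by rw [haa, one_mul]
        have h2 : z * a = a * y := by
          rw [hz]
          group
        calc a * (y * z) = (a * y) * z := by group
          _ = z * (a * z) := by rw [← h2]; group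
          _ = (z * y) * a := by rw [h1]; group
          _ = _ := by rw [hyz]
      rintro g (hg | hg)
      · exact hHC g hg
      · have hga := hbase g hg
        have h3 := hHC _ hg
        calc g * (y * z) = a * (a * g) * (y * z) := by rw [← hga]
          _ = a * ((a * g) * (y * z)) := by group
          _ = (a * (y * z)) * (a * g) := by rw [h3]; group
          _ = (y * z) * a * (a * g) := by rw [haC]
          _ = (y * z) * (a * (a * g)) := by group
          _ = _ := by rw [← hga]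
    · refine Subgroup.mul_mem _ (Qj_mono hHH' hy3) ?_
      refine conj_Qj_le (fun d hd => ?_) hy3
      refine Or.inr ?_
      rwa [← mul_assoc, haa, one_mul]
    · intro m hm
      have hym := hy4 m hm
      have hcm : Commute y z := hyz
      rw [hcm.mul_pow, hym, hz, conj_pow, hym]
      group
    · intro b hb hbt
      have hby := hy5 b hb hbt
      have hba : b * a = a * b := hcomm b hb a ha
      have hbz : b * z * b⁻¹ = z⁻¹ := by
        rw [hz]
        calc b * (a * y * a⁻¹) * b⁻¹ = (b * a) * y * (b * a)⁻¹ := by group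
          _ = (a * b) * y * (a * b)⁻¹ := by rw [hba]
          _ = a * (b * y * b⁻¹) * a⁻¹ := by group
          _ = _ := by rw [hby]; group
      calc b * (y * z) * b⁻¹ = (b * y * b⁻¹) * (b * z * b⁻¹) := by group
        _ = y⁻¹ * z⁻¹ := by rw [hby, hbz]
        _ = (z * y)⁻¹ := by group
        _ = _ := by rw [hyz]

end CaseB

end Cfsg.Agent.Lib.SThreeFree.Comp
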