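import Mathlib
import Cfsg.Agent.Lib.KS71.PSLAutGroup
import Cfsg.Agent.Lib.Classical.AltIso
import Cfsg.Agent.Lib.Classical.LowOmega.CenterPSL2
import Cfsg.Agent.Lib.SThreeFree.Model

/-!
# Involutory automorphisms of `PSL₂(3^(2n+1))`

An involutory automorphism `β` of `PSL₂(F)`, `|F| = 3^(2n+1)`, which inverts no element of order `3`, is
inner, and inverts an element of prime order `r` where `r ∉ {2, 3, 5, 7, 31}`.
-/

set_option autoImplicit false

namespace Cfsg.Agent.Lib.SThreeFree.L2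

open Matrix
open scoped MatrixGroups
open Cfsg.Agent.Lib.KS71.PSLCore Cfsg.Agent.Lib.KS71.PSLAut3 Cfsg.Agent.Lib.KS71.PSLAutGroup
open Cfsg.Agent.Lib.SThreeFree.Model

variable {F : Type*} [Field F] [Fintype F] {n : ℕ}

/-- Involutory automorphisms come from `GL₂`. -/
theorem eq_conj_of_sq (hF : Fintype.card F = 3 ^ (2 * n + 1))
    (β : MulAut (ProjectiveSpecialLinearGroup (Fin 2) F)) (hβ : β * β = 1) :
    ∃ (g : GL (Fin 2) F) (c : Fˣ), β = autOf (conjS g) ∧
      g * g * Matrix.GeneralLinearGroup.scalar (Fin 2) c = 1 := by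
  haveI : Fact (Nat.Prime 3) := ⟨Nat.prime_three⟩
  have hT : TInv 2 F := fun β x hx =>
    Cfsg.Agent.Lib.KS71.PSLSylow.isT_map Nat.prime_three hF (by omega) le_rfl β hx
  obtain ⟨g, σ, hg⟩ := Cfsg.Agent.Lib.KS71.PSLAut2.main2 hT β
  have h1 : autOf (conjS (g * mapGL σ g)) * autOf (fieldS (σ * σ)) =
      autOf (conjS (1 : GL (Fin 2) F)) * autOf (fieldS (1 : F ≃+* F)) := by
    rw [conj_one, field_one, mul_one, ← hβ, hg, Cfsg.Agent.Lib.KS71.PSLAutGroup.conj_mul, field_mul]
    calc autOf (conjS g) * autOf (conjS (mapGL σ g)) * (autOf (fieldS σ) * autOf (fieldS σ))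
        = autOf (conjS g) * (autOf (conjS (mapGL σ g)) * autOf (fieldS σ)) * autOf (fieldS σ) := by
          simp only [mul_assoc]
      _ = autOf (conjS g) * (autOf (fieldS σ) * autOf (conjS g)) * autOf (fieldS σ) := by
          rw [field_conj]
      _ = _ := by simp only [mul_assoc]
  obtain ⟨hσ, c, hc⟩ := semi_inj (by norm_num) h1
  have hcard : Nat.card (F ≃+* F) = 2 * n + 1 := card_ringEquiv hF (by omega)
  have hσ1 : σ = 1 := by
    have h2 : σ ^ (2 * n + 1) = 1 := by
      rw [← hcard]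
      exact pow_card_eq_one'
    rw [pow_succ, pow_mul, pow_two, hσ, one_pow, one_mul] at h2
    exact h2
  subst hσ1
  refine ⟨g, c, ?_, ?_⟩
  · rw [hg, field_one, mul_one]
  · have h3 : mapGL (1 : F ≃+* F) g = g := by
      apply Units.ext
      refine Matrix.ext fun i j => ?_
      rfl
    rwa [h3] at hc

/-- If `g` is a scalar then `conj g` is trivial. -/
theorem conj_eq_one_of_scalar {g : GL (Fin 2) F} {t : F}
    (h : (g : Matrix (Fin 2) (Fin 2) F) = t • 1) :
    autOf (conjS g) = (1 : MulAut (ProjectiveSpecialLinearGroup (Fin 2) F)) := by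
  refine MulEquiv.ext fun x => ?_
  obtain ⟨s, rfl⟩ := mkP_surj x
  show mkP (conjS g s) = mkP s
  apply mkP_congr
  rw [coe_conjS]
  have h1 : (g : Matrix (Fin 2) (Fin 2) F) * (s : Matrix (Fin 2) (Fin 2) F) =
      (s : Matrix (Fin 2) (Fin 2) F) * (g : Matrix (Fin 2) (Fin 2) F) := by
    rw [h]
    simp
  rw [h1, Matrix.mul_assoc, gl_mul_inv, Matrix.mul_one]

/-- The key matrix calculation behind the inverted unipotent element. -/
theorem exists_N {M : Matrix (Fin 2) (Fin 2) F} {t : F} (hM : M * M = (t * t) • 1)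
    (h1 : t • (1 : Matrix (Fin 2) (Fin 2) F) + M ≠ 0) (h2 : t • (1 : Matrix (Fin 2) (Fin 2) F) - M ≠ 0) :
    ∃ N : Matrix (Fin 2) (Fin 2) F, N ≠ 0 ∧ M * N = t • N ∧ N * M = (-t) • N ∧ N * N = 0 := by
  classical
  set A := t • (1 : Matrix (Fin 2) (Fin 2) F) + M with hA
  set B := t • (1 : Matrix (Fin 2) (Fin 2) F) - M with hB
  have hAB : B * A = 0 := by
    rw [hA, hB, sub_mul, mul_add, mul_add, hM]
    simp only [Matrix.smul_mul, Matrix.mul_smul, Matrix.one_mul, Matrix.mul_one, smul_smul]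
    abel
  have hMA : M * A = t • A := by
    rw [hA, mul_add, hM, smul_add, smul_smul]
    simp only [Matrix.mul_smul, Matrix.mul_one]
    abel
  have hBM : B * M = (-t) • B := by
    rw [hB, sub_mul, hM, smul_sub, smul_smul]
    simp only [Matrix.smul_mul, Matrix.one_mul, neg_smul, neg_mul]
    abel
  obtain ⟨i, j, hij⟩ : ∃ i j, A i j ≠ 0 := by
    by_contra hcon
    push Not at hcon
    exact h1 (Matrix.ext hcon)
  obtain ⟨k, l, hkl⟩ : ∃ k l, B k l ≠ 0 := by
    by_contra hcon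
    push Not at hcon
    exact h2 (Matrix.ext hcon)
  refine ⟨A * Matrix.single j k 1 * B, ?_, ?_, ?_, ?_⟩
  · intro h0
    have h3 := congrFun (congrFun h0 i) l
    simp only [Matrix.mul_apply, Fin.sum_univ_two, Matrix.single_apply, Matrix.zero_apply] at h3
    have h4 : A i j * B k l = 0 := by
      fin_cases j <;> fin_cases k <;> simpa using h3
    exact (mul_ne_zero hij hkl) h4
  · rw [← Matrix.mul_assoc, ← Matrix.mul_assoc, hMA]
    simp only [Matrix.smul_mul]
  · rw [Matrix.mul_assoc, hBM]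
    simp only [Matrix.mul_smul]
  · calc A * Matrix.single j k 1 * B * (A * Matrix.single j k 1 * B)
        = A * Matrix.single j k 1 * (B * A) * Matrix.single j k 1 * B := by
          simp only [Matrix.mul_assoc]
      _ = 0 := by rw [hAB]; simp

/-- `det (1 + N) = 1` if `N² = 0`. -/
theorem det_one_add {N : Matrix (Fin 2) (Fin 2) F} (hN : N * N = 0) : (1 + N).det = 1 := by
  have h00 := congrFun (congrFun hN 0) 0
  have h01 := congrFun (congrFun hN 0) 1
  have h10 := congrFun (congrFun hN 1) 0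
  have h11 := congrFun (congrFun hN 1) 1
  simp only [Matrix.mul_apply, Fin.sum_univ_two, Matrix.zero_apply] at h00 h01 h10 h11
  rw [Matrix.det_fin_two]
  simp only [Matrix.add_apply, Matrix.one_apply_eq, Matrix.one_apply_ne (zero_ne_one),
    Matrix.one_apply_ne (one_ne_zero), zero_add]
  by_cases hs : N 0 0 + N 1 1 = 0
  · have h5 : N 1 1 = - N 0 0 := by linear_combination hs
    rw [h5] at *
    linear_combination (-1 : F) * h00
  · exfalso
    apply hs
    have h6 : N 0 1 = 0 := by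
      have : N 0 1 * (N 0 0 + N 1 1) = 0 := by linear_combination h01
      exact (mul_eq_zero.1 this).resolve_right hs
    have h7 : N 1 0 = 0 := by
      have : N 1 0 * (N 0 0 + N 1 1) = 0 := by linear_combination h10
      exact (mul_eq_zero.1 this).resolve_right hs
    rw [h6] at h00 h11
    have h8 : N 0 0 = 0 := by simpa [h7] using h00
    have h9 : N 1 1 = 0 := by simpa [h7] using h11
    rw [h8, h9, add_zero]

lemma char_three (hF : Fintype.card F = 3 ^ (2 * n + 1)) : (3 : F) = 0 := by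
  haveI : Fact (Nat.Prime 3) := ⟨Nat.prime_three⟩
  haveI : CharP F 3 := charP_of_card_eq_prime_pow hF
  exact_mod_cast CharP.cast_eq_zero F 3

/-- `M² = t²`, `t ≠ 0`, `M` not a scalar: conjugation by `M` inverts an element of order `3`. -/
theorem inverts_order_three (hF : Fintype.card F = 3 ^ (2 * n + 1)) {g : GL (Fin 2) F} {t : F} (ht : t ≠ 0)
    (hM : (g : Matrix (Fin 2) (Fin 2) F) * g = (t * t) • 1)
    (hnon : ∀ u : F, (g : Matrix (Fin 2) (Fin 2) F) ≠ u • 1) :
    ∃ x : ProjectiveSpecialLinearGroup (Fin 2) F, orderOf x = 3 ∧ autOf (conjS g) x = x⁻¹ := by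
  haveI : Fact (Nat.Prime 3) := ⟨Nat.prime_three⟩
  have h3 : (3 : F) = 0 := char_three hF
  have h1 : t • (1 : Matrix (Fin 2) (Fin 2) F) + (g : Matrix (Fin 2) (Fin 2) F) ≠ 0 := by
    intro h
    apply hnon (-t)
    rw [neg_smul]
    exact eq_neg_of_add_eq_zero_right h
  have h2 : t • (1 : Matrix (Fin 2) (Fin 2) F) - (g : Matrix (Fin 2) (Fin 2) F) ≠ 0 := by
    intro h
    apply hnon t
    exact (sub_eq_zero.1 h).symm
  obtain ⟨N, hN0, hMN, hNM, hNN⟩ := exists_N hM h1 h2
  let x : SL(2, F) := ⟨1 + N, det_one_add hNN⟩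
  have hNN' : (-N) * (-N) = 0 := by rw [neg_mul_neg, hNN]
  let y : SL(2, F) := ⟨1 + -N, det_one_add hNN'⟩
  have hxy : x * y = 1 := by
    apply Subtype.ext
    show (1 + N) * (1 + -N) = 1
    simp [mul_add, add_mul, hNN]
  have hyx : y = x⁻¹ := eq_inv_of_mul_eq_one_right hxy
  have hconj : conjS g x = y := by
    apply Subtype.ext
    rw [coe_conjS]
    show (g : Matrix (Fin 2) (Fin 2) F) * (1 + N) * ((g⁻¹ : GL (Fin 2) F) : Matrix (Fin 2) (Fin 2) F) = 1 + -N
    have h4 : N * ((g⁻¹ : GL (Fin 2) F) : Matrix (Fin 2) (Fin 2) F) = (-t)⁻¹ • N := by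
      have h5 : N * (g : Matrix (Fin 2) (Fin 2) F) * ((g⁻¹ : GL (Fin 2) F) : Matrix (Fin 2) (Fin 2) F) = N := by
        rw [Matrix.mul_assoc, gl_mul_inv, Matrix.mul_one]
      rw [hNM, Matrix.smul_mul] at h5
      have ht' : -t ≠ 0 := neg_ne_zero.2 ht
      calc N * ((g⁻¹ : GL (Fin 2) F) : Matrix (Fin 2) (Fin 2) F)
          = (-t)⁻¹ • ((-t) • (N * ((g⁻¹ : GL (Fin 2) F) : Matrix (Fin 2) (Fin 2) F))) := by
            rw [smul_smul, inv_mul_cancel₀ ht', one_smul]
        _ = _ := by rw [h5]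
    rw [mul_add, Matrix.mul_one, hMN, add_mul, gl_mul_inv, Matrix.smul_mul, h4, smul_smul]
    have h6 : t * (-t)⁻¹ = -1 := by
      field_simp
    rw [h6, neg_smul, one_smul]
  have hcube : x * x * x = 1 := by
    apply Subtype.ext
    show (1 + N) * (1 + N) * (1 + N) = 1
    have h7 : (1 + N) * (1 + N) * (1 + N) = 1 + (3 : F) • N := by
      simp only [mul_add, add_mul, hNN, one_mul, mul_one, add_zero]
      have : (3 : F) • N = N + N + N := by
        rw [show (3 : F) = 1 + 1 + 1 by norm_num, add_smul, add_smul, one_smul]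
      rw [this]
      abel
    rw [h7, h3, zero_smul, add_zero]
  have hne : mkP x ≠ 1 := by
    intro h
    have h8 : x ∈ Subgroup.center (SL(2, F)) := (QuotientGroup.eq_one_iff x).1 h
    rw [Matrix.SpecialLinearGroup.mem_center_iff] at h8
    obtain ⟨r, -, hr⟩ := h8
    have h9 : Matrix.scalar (Fin 2) r = 1 + N := hr
    have h10 : N = Matrix.scalar (Fin 2) (r - 1) := by
      rw [map_sub, h9]
      simp
    rw [h10, ← map_mul] at hNN
    have h11 : (r - 1) * (r - 1) = 0 := by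
      have := congrFun (congrFun hNN 0) 0
      simpa using this
    have h12 : r - 1 = 0 := by simpa using h11
    apply hN0
    rw [h10, h12, map_zero]
  refine ⟨mkP x, ?_, ?_⟩
  · apply orderOf_eq_prime _ hne
    show mkP (x ^ 3) = 1
    rw [pow_succ, pow_two, hcube]
    rfl
  · show mkP (conjS g x) = (mkP x)⁻¹
    rw [hconj, hyx]
    rfl

/-- Structure of `M` with `M² = s`, `M` non-scalar. -/
lemma trace_zero {M : Matrix (Fin 2) (Fin 2) F} {s : F} (hM : M * M = s • 1)
    (hnon : ∀ u : F, M ≠ u • 1) :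
    M 1 1 = - M 0 0 ∧ M 0 0 * M 0 0 + M 0 1 * M 1 0 = s := by
  have h00 := congrFun (congrFun hM 0) 0
  have h01 := congrFun (congrFun hM 0) 1
  have h10 := congrFun (congrFun hM 1) 0
  have h11 := congrFun (congrFun hM 1) 1
  simp only [Matrix.mul_apply, Fin.sum_univ_two, Matrix.smul_apply, Matrix.one_apply_eq,
    Matrix.one_apply_ne (zero_ne_one), Matrix.one_apply_ne (one_ne_zero), smul_eq_mul, mul_one, mul_zero]
    at h00 h01 h10 h11
  refine ⟨?_, h00⟩
  by_contra hne
  have hs : M 0 0 + M 1 1 ≠ 0 := by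
    intro h
    apply hne
    linear_combination h
  have h6 : M 0 1 = 0 := by
    have : M 0 1 * (M 0 0 + M 1 1) = 0 := by linear_combination h01
    exact (mul_eq_zero.1 this).resolve_right hs
  have h7 : M 1 0 = 0 := by
    have : M 1 0 * (M 0 0 + M 1 1) = 0 := by linear_combination h10
    exact (mul_eq_zero.1 this).resolve_right hs
  have h8 : (M 0 0 - M 1 1) * (M 0 0 + M 1 1) = 0 := by
    linear_combination h00 - h11
  have h9 : M 0 0 = M 1 1 := sub_eq_zero.1 ((mul_eq_zero.1 h8).resolve_right hs)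
  apply hnon (M 0 0)
  refine Matrix.ext fun i j => ?_
  fin_cases i <;> fin_cases j <;> simp [h6, h7, h9]

lemma neg_one_not_square (hF : Fintype.card F = 3 ^ (2 * n + 1)) : ¬ IsSquare (-1 : F) := by
  rw [FiniteField.isSquare_neg_one_iff, hF, not_not, pow_succ, pow_mul, Nat.mul_mod, Nat.pow_mod]
  norm_num

/-- The quadratic dichotomy in `F`: if `s` is not a square then `-s` is. -/
lemma neg_isSquare (hF : Fintype.card F = 3 ^ (2 * n + 1)) {s : F} (hs : ¬ IsSquare s) : IsSquare (-s) := by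
  classical
  have h1 := quadraticChar_neg_one_iff_not_isSquare.2 hs
  have h2 := quadraticChar_neg_one_iff_not_isSquare.2 (neg_one_not_square hF)
  have hs0 : s ≠ 0 := by
    rintro rfl
    exact hs IsSquare.zero
  rw [← quadraticChar_one_iff_isSquare (neg_ne_zero.2 hs0), neg_eq_neg_one_mul, map_mul, h1, h2]
  norm_num

/-- An element of `SL₂` with square `-1` is conjugate to the standard one, and inverts a torus. -/
theorem exists_inverted (hF : Fintype.card F = 3 ^ (2 * n + 1)) {h : SL(2, F)}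
    (hh : (h : Matrix (Fin 2) (Fin 2) F) * h = -1) {r : ℕ} (hr : r.Prime) (hr2 : r ≠ 2)
    (hrd : r ∣ 3 ^ (2 * n + 1) - 1) :
    ∃ x : ProjectiveSpecialLinearGroup (Fin 2) F, orderOf x = r ∧ mkP h * x * (mkP h)⁻¹ = x⁻¹ := by
  classical
  haveI : Fact r.Prime := ⟨hr⟩
  obtain ⟨htr, hdet⟩ := trace_zero (M := (h : Matrix (Fin 2) (Fin 2) F)) (s := -1)
    (by rw [hh, neg_smul, one_smul])
    (by
      intro u hu
      have h1 : u * u = -1 := by
        have h2 := congrFun (congrFun hh 0) 0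
        rw [hu] at h2
        simpa using h2
      exact neg_one_not_square hF ⟨u, h1.symm⟩)
  set a := (h : Matrix (Fin 2) (Fin 2) F) 0 0 with ha
  set b := (h : Matrix (Fin 2) (Fin 2) F) 0 1 with hb
  set c := (h : Matrix (Fin 2) (Fin 2) F) 1 0 with hc
  have hc0 : c ≠ 0 := by
    intro h0
    rw [h0, mul_zero, add_zero] at hdet
    exact neg_one_not_square hF ⟨a, hdet.symm⟩
  have hhM : (h : Matrix (Fin 2) (Fin 2) F) = !![a, b; c, -a] := by
    refine Matrix.ext fun i j => ?_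
    fin_cases i <;> fin_cases j <;> simp [ha, hb, hc, htr]
  -- the conjugating matrix
  let Pm : Matrix (Fin 2) (Fin 2) F := !![1, a; 0, c]
  have hPdet : Pm.det ≠ 0 := by
    simp [Pm, Matrix.det_fin_two, hc0]
  let Pg : GL (Fin 2) F := Matrix.GeneralLinearGroup.mkOfDetNeZero Pm hPdet
  have hPg : (Pg : Matrix (Fin 2) (Fin 2) F) = Pm := rfl
  let W : Matrix (Fin 2) (Fin 2) F := !![0, -1; 1, 0]
  have hHP : (h : Matrix (Fin 2) (Fin 2) F) * Pm = Pm * W := by
    rw [hhM]
    refine Matrix.ext fun i j => ?_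
    have h3 : a * a + b * c = -1 := hdet
    fin_cases i <;> fin_cases j <;>
      simp [Pm, W, Matrix.mul_apply, Fin.sum_univ_two]
    · linear_combination h3
    · ring
  -- the torus element
  have hcardU : Nat.card Fˣ = 3 ^ (2 * n + 1) - 1 := by
    rw [Nat.card_eq_fintype_card, Fintype.card_units, hF]
  obtain ⟨l, hl⟩ := exists_prime_orderOf_dvd_card' (G := Fˣ) r (by rw [hcardU]; exact hrd)
  have hl' : ((l : F)) ^ r = 1 := by
    have := pow_orderOf_eq_one l
    rw [hl] at this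
    have h2 := congrArg Units.val this
    simpa using h2
  have hl0 : (l : F) ≠ 0 := l.ne_zero
  let D : SL(2, F) := ⟨!![(l : F), 0; 0, (l : F)⁻¹], by simp [Matrix.det_fin_two, hl0]⟩
  let Di : SL(2, F) := ⟨!![(l : F)⁻¹, 0; 0, (l : F)], by simp [Matrix.det_fin_two, hl0]⟩
  have hDDi : D * Di = 1 := by
    apply Subtype.ext
    show !![(l : F), 0; 0, (l : F)⁻¹] * !![(l : F)⁻¹, 0; 0, (l : F)] = 1
    refine Matrix.ext fun i j => ?_
    fin_cases i <;> fin_cases j <;> simp [Matrix.mul_apply, Fin.sum_univ_two, hl0]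
  have hDi : Di = D⁻¹ := eq_inv_of_mul_eq_one_right hDDi
  have hWD : W * (D : Matrix (Fin 2) (Fin 2) F) = (Di : Matrix (Fin 2) (Fin 2) F) * W := by
    show W * !![(l : F), 0; 0, (l : F)⁻¹] = !![(l : F)⁻¹, 0; 0, (l : F)] * W
    refine Matrix.ext fun i j => ?_
    fin_cases i <;> fin_cases j <;> simp [W, Matrix.mul_apply, Fin.sum_univ_two]
  -- the order of the image of `D`
  have hDpow : ∀ k : ℕ, ((D ^ k : SL(2, F)) : Matrix (Fin 2) (Fin 2) F) =
      !![(l : F) ^ k, 0; 0, ((l : F)⁻¹) ^ k] := by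
    intro k
    induction k with
    | zero =>
      refine Matrix.ext fun i j => ?_
      fin_cases i <;> fin_cases j <;> simp
    | succ k ih =>
      rw [pow_succ, Matrix.SpecialLinearGroup.coe_mul, ih]
      show !![(l : F) ^ k, 0; 0, ((l : F)⁻¹) ^ k] * !![(l : F), 0; 0, (l : F)⁻¹] = _
      refine Matrix.ext fun i j => ?_
      fin_cases i <;> fin_cases j <;> simp [Matrix.mul_apply, Fin.sum_univ_two, pow_succ]
  have hDr : D ^ r = 1 := by
    apply Subtype.ext
    rw [hDpow, inv_pow, hl', inv_one]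
    refine Matrix.ext fun i j => ?_
    fin_cases i <;> fin_cases j <;> simp
  have hDne : mkP D ≠ 1 := by
    intro h0
    have h8 : D ∈ Subgroup.center (SL(2, F)) := (QuotientGroup.eq_one_iff D).1 h0
    rw [Matrix.SpecialLinearGroup.mem_center_iff] at h8
    obtain ⟨u, -, hu⟩ := h8
    have h9 : Matrix.scalar (Fin 2) u = !![(l : F), 0; 0, (l : F)⁻¹] := hu
    have h10 : u = (l : F) := by
      have := congrFun (congrFun h9 0) 0
      simpa using this
    have h11 : u = (l : F)⁻¹ := by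
      have := congrFun (congrFun h9 1) 1
      simpa using this
    have h12 : (l : F) * l = 1 := by
      nth_rewrite 1 [← h10]
      rw [h11, inv_mul_cancel₀ hl0]
    have h13 : l * l = 1 := Units.ext h12
    have h14 : orderOf l ∣ 2 := orderOf_dvd_of_pow_eq_one (by rw [pow_two, h13])
    rw [hl] at h14
    exact hr2 ((Nat.prime_dvd_prime_iff_eq hr Nat.prime_two).1 h14)
  have hordD : orderOf (mkP D) = r := by
    apply orderOf_eq_prime _ hDne
    show mkP (D ^ r) = 1
    rw [hDr]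
    rfl
  refine ⟨mkP (conjS Pg D), ?_, ?_⟩
  · have h1 : mkP (conjS Pg D) = autOf (conjS Pg) (mkP D) := rfl
    rw [h1, MulEquiv.orderOf_eq, hordD]
  · have key : h * conjS Pg D = conjS Pg Di * h := by
      apply Subtype.ext
      rw [Matrix.SpecialLinearGroup.coe_mul, Matrix.SpecialLinearGroup.coe_mul, coe_conjS, coe_conjS, hPg]
      have h2 : ((Pg⁻¹ : GL (Fin 2) F) : Matrix (Fin 2) (Fin 2) F) * (h : Matrix (Fin 2) (Fin 2) F) =
          W * ((Pg⁻¹ : GL (Fin 2) F) : Matrix (Fin 2) (Fin 2) F) := by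
        have h3 : ((Pg⁻¹ : GL (Fin 2) F) : Matrix (Fin 2) (Fin 2) F) * ((h : Matrix (Fin 2) (Fin 2) F) * Pm) *
            ((Pg⁻¹ : GL (Fin 2) F) : Matrix (Fin 2) (Fin 2) F) =
            ((Pg⁻¹ : GL (Fin 2) F) : Matrix (Fin 2) (Fin 2) F) * (Pm * W) *
            ((Pg⁻¹ : GL (Fin 2) F) : Matrix (Fin 2) (Fin 2) F) := by rw [hHP]
        have h4 : ((Pg⁻¹ : GL (Fin 2) F) : Matrix (Fin 2) (Fin 2) F) * Pm = 1 := gl_inv_mul Pg
        have h5 : Pm * ((Pg⁻¹ : GL (Fin 2) F) : Matrix (Fin 2) (Fin 2) F) = 1 := gl_mul_inv Pg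
        calc ((Pg⁻¹ : GL (Fin 2) F) : Matrix (Fin 2) (Fin 2) F) * (h : Matrix (Fin 2) (Fin 2) F)
            = ((Pg⁻¹ : GL (Fin 2) F) : Matrix (Fin 2) (Fin 2) F) * ((h : Matrix (Fin 2) (Fin 2) F) * Pm) *
              ((Pg⁻¹ : GL (Fin 2) F) : Matrix (Fin 2) (Fin 2) F) := by
              rw [Matrix.mul_assoc, Matrix.mul_assoc, h5, Matrix.mul_one]
          _ = ((Pg⁻¹ : GL (Fin 2) F) : Matrix (Fin 2) (Fin 2) F) * (Pm * W) *
              ((Pg⁻¹ : GL (Fin 2) F) : Matrix (Fin 2) (Fin 2) F) := h3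
          _ = _ := by rw [← Matrix.mul_assoc, h4, Matrix.one_mul]
      calc (h : Matrix (Fin 2) (Fin 2) F) * (Pm * (D : Matrix (Fin 2) (Fin 2) F) * ((Pg⁻¹ : GL (Fin 2) F) : Matrix (Fin 2) (Fin 2) F))
          = ((h : Matrix (Fin 2) (Fin 2) F) * Pm) * (D : Matrix (Fin 2) (Fin 2) F) * ((Pg⁻¹ : GL (Fin 2) F) : Matrix (Fin 2) (Fin 2) F) := by
            simp only [Matrix.mul_assoc]
        _ = Pm * (W * (D : Matrix (Fin 2) (Fin 2) F)) * ((Pg⁻¹ : GL (Fin 2) F) : Matrix (Fin 2) (Fin 2) F) := by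
            rw [hHP]; simp only [Matrix.mul_assoc]
        _ = Pm * (Di : Matrix (Fin 2) (Fin 2) F) * (W * ((Pg⁻¹ : GL (Fin 2) F) : Matrix (Fin 2) (Fin 2) F)) := by
            rw [hWD]; simp only [Matrix.mul_assoc]
        _ = _ := by rw [← h2]; simp only [Matrix.mul_assoc]
    have h5 : mkP h * mkP (conjS Pg D) = mkP (conjS Pg Di) * mkP h := by
      rw [← mkP_mul, ← mkP_mul, key]
    have h6 : mkP (conjS Pg Di) = (mkP (conjS Pg D))⁻¹ := by
      rw [hDi, map_inv]
      rfl
    rw [h5, h6, mul_assoc, mul_inv_cancel, mul_one]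

/-- A suitable prime. -/
theorem exists_good_prime (hn : 1 ≤ n) :
    ∃ r : ℕ, r.Prime ∧ r ≠ 2 ∧ r ≠ 3 ∧ r ≠ 5 ∧ r ≠ 7 ∧ r ≠ 31 ∧ r ∣ 3 ^ (2 * n + 1) - 1 := by
  set q := 3 ^ (2 * n + 1) with hq
  have hq4 : q % 4 = 3 := by
    rw [hq, pow_succ, pow_mul, Nat.mul_mod, Nat.pow_mod]
    norm_num
  have hq27 : 27 ≤ q := by
    calc 27 = 3 ^ 3 := by norm_num
      _ ≤ q := Nat.pow_le_pow_right (by norm_num) (by omega)
  have h3q : 3 ∣ q := dvd_pow_self 3 (by omega)
  obtain ⟨Q, hQ⟩ : ∃ Q, q - 1 = 2 * Q := ⟨(q - 1) / 2, by omega⟩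
  have hQ1 : Q ≠ 1 := by omega
  have hQodd : Q % 2 = 1 := by omega
  set r := Q.minFac with hr
  have hrp : r.Prime := Nat.minFac_prime hQ1
  have hrQ : r ∣ Q := Nat.minFac_dvd Q
  have hrq : r ∣ q - 1 := by
    rw [hQ]
    exact Dvd.dvd.mul_left hrQ 2
  have hcast : ∀ m : ℕ, m ∣ q - 1 → ((3 : ZMod m)) * (3 ^ n) * (3 ^ n) = 1 := by
    intro m hm
    have h1 : ((q - 1 : ℕ) : ZMod m) = 0 := (ZMod.natCast_eq_zero_iff _ _).2 hm
    rw [Nat.cast_sub (by omega), sub_eq_zero, hq] at h1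
    push_cast at h1
    rw [← h1]
    ring
  refine ⟨r, hrp, ?_, ?_, ?_, ?_, ?_, hrq⟩
  · intro h
    rw [h] at hrQ
    omega
  · intro h
    rw [h] at hrq
    omega
  · intro h
    rw [h] at hrq
    have := hcast 5 hrq
    exact absurd this (by
      generalize (3 : ZMod 5) ^ n = y
      revert y
      decide)
  · intro h
    rw [h] at hrq
    have := hcast 7 hrq
    exact absurd this (by
      generalize (3 : ZMod 7) ^ n = y
      revert y
      decide)
  · intro h
    rw [h] at hrq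
    have := hcast 31 hrq
    exact absurd this (by
      generalize (3 : ZMod 31) ^ n = y
      revert y
      decide)

/-- The main dichotomy. -/
theorem main (hF : Fintype.card F = 3 ^ (2 * n + 1)) (hn : 1 ≤ n)
    (β : MulAut (ProjectiveSpecialLinearGroup (Fin 2) F)) (hββ : β * β = 1) (hβ1 : β ≠ 1)
    (hno3 : ∀ x, orderOf x = 3 → β x = x⁻¹ → β = 1) :
    (∃ y, β = MulAut.conj y) ∧ ∃ (x : ProjectiveSpecialLinearGroup (Fin 2) F) (r : ℕ), r.Prime ∧ r ≠ 2 ∧ r ≠ 3 ∧
      r ≠ 5 ∧ r ≠ 7 ∧ r ≠ 31 ∧ β x = x⁻¹ ∧ orderOf x = r := by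
  classical
  obtain ⟨g, c, rfl, hg⟩ := eq_conj_of_sq hF β hββ
  have hnon : ∀ u : F, (g : Matrix (Fin 2) (Fin 2) F) ≠ u • 1 := fun u hu =>
    hβ1 (conj_eq_one_of_scalar hu)
  set s : F := ((c⁻¹ : Fˣ) : F) with hs
  have hM : (g : Matrix (Fin 2) (Fin 2) F) * g = s • 1 := by
    have h1 : g * g = Matrix.GeneralLinearGroup.scalar (Fin 2) c⁻¹ := by
      rw [map_inv]
      exact eq_inv_of_mul_eq_one_left hg
    have h2 := congrArg (fun u : GL (Fin 2) F => (u : Matrix (Fin 2) (Fin 2) F)) h1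
    simp only [Units.val_mul] at h2
    have h3 : (((Matrix.GeneralLinearGroup.scalar (Fin 2)) c⁻¹ : GL (Fin 2) F) : Matrix (Fin 2) (Fin 2) F) =
        Matrix.scalar (Fin 2) s := rfl
    rw [h2, h3]
    refine Matrix.ext fun i j => ?_
    simp [Matrix.scalar_apply, Matrix.one_apply, Matrix.diagonal_apply]
  by_cases hsq : IsSquare s
  · exfalso
    obtain ⟨t, ht⟩ := hsq
    have ht0 : t ≠ 0 := by
      rintro rfl
      rw [mul_zero] at ht
      exact (Units.ne_zero c⁻¹) ht
    obtain ⟨x, hx3, hx⟩ := inverts_order_three hF ht0 (by rw [hM, ht]) hnon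
    exact hβ1 (hno3 x hx3 hx)
  · obtain ⟨htr, hdet⟩ := trace_zero hM hnon
    obtain ⟨d, hd⟩ := neg_isSquare hF hsq
    have hs0 : s ≠ 0 := Units.ne_zero c⁻¹
    have hd0 : d ≠ 0 := by
      rintro rfl
      rw [mul_zero, neg_eq_zero] at hd
      exact hs0 hd
    have hdetM : (g : Matrix (Fin 2) (Fin 2) F).det = d * d := by
      rw [Matrix.det_fin_two, htr, ← hd, ← hdet]
      ring
    -- the element of `SL₂`
    let h : SL(2, F) := ⟨d⁻¹ • (g : Matrix (Fin 2) (Fin 2) F), by
      rw [Matrix.det_smul, hdetM]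
      simp
      field_simp⟩
    have hhM : (h : Matrix (Fin 2) (Fin 2) F) = d⁻¹ • (g : Matrix (Fin 2) (Fin 2) F) := rfl
    have hh : (h : Matrix (Fin 2) (Fin 2) F) * h = -1 := by
      rw [hhM, Matrix.smul_mul, Matrix.mul_smul, hM, smul_smul, smul_smul]
      have h1 : d⁻¹ * d⁻¹ * s = -1 := by
        have h2 : s = -(d * d) := by rw [← hd, neg_neg]
        rw [h2]
        field_simp
      rw [h1, neg_smul, one_smul]
    have hconj : autOf (conjS g) = MulAut.conj (mkP h) := by
      refine MulEquiv.ext fun x => ?_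
      obtain ⟨y, rfl⟩ := mkP_surj x
      show mkP (conjS g y) = mkP (h * y * h⁻¹)
      apply mkP_congr
      rw [coe_conjS, Matrix.SpecialLinearGroup.coe_mul, Matrix.SpecialLinearGroup.coe_mul]
      have h1 : ((h⁻¹ : SL(2, F)) : Matrix (Fin 2) (Fin 2) F) = d • ((g⁻¹ : GL (Fin 2) F) : Matrix (Fin 2) (Fin 2) F) := by
        have h2 : (h : Matrix (Fin 2) (Fin 2) F) * (d • ((g⁻¹ : GL (Fin 2) F) : Matrix (Fin 2) (Fin 2) F)) = 1 := by
          rw [hhM, Matrix.smul_mul, Matrix.mul_smul, gl_mul_inv, smul_smul, inv_mul_cancel₀ hd0, one_smul]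
        calc ((h⁻¹ : SL(2, F)) : Matrix (Fin 2) (Fin 2) F)
            = ((h⁻¹ : SL(2, F)) : Matrix (Fin 2) (Fin 2) F) * ((h : Matrix (Fin 2) (Fin 2) F) * (d • ((g⁻¹ : GL (Fin 2) F) : Matrix (Fin 2) (Fin 2) F))) := by
              rw [h2, Matrix.mul_one]
          _ = _ := by
              rw [← Matrix.mul_assoc, sl_inv_mul, Matrix.one_mul]
      rw [h1, hhM]
      simp only [Matrix.smul_mul, Matrix.mul_smul, smul_smul]
      rw [mul_inv_cancel₀ hd0, one_smul]
    obtain ⟨r, hr, hr2, hr3, hr5, hr7, hr31, hrd⟩ := exists_good_prime hn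
    obtain ⟨x, hx, hxinv⟩ := exists_inverted hF hh hr hr2 hrd
    refine ⟨⟨mkP h, hconj⟩, x, r, hr, hr2, hr3, hr5, hr7, hr31, ?_, hx⟩
    rw [hconj]
    exact hxinv

lemma q_mod_sixteen (n : ℕ) : 3 ^ (2 * n + 1) % 16 = 3 ∨ 3 ^ (2 * n + 1) % 16 = 11 := by
  induction n with
  | zero => left; norm_num
  | succ m ih =>
    have : 3 ^ (2 * (m + 1) + 1) = 3 ^ (2 * m + 1) * 9 := by ring
    rw [this, Nat.mul_mod]
    rcases ih with h | h <;> rw [h] <;> norm_num

/-- `PSL₂(3)` is not simple. -/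
theorem not_simple_of_card_three (hF : Fintype.card F = 3 ^ (2 * 0 + 1)) :
    ¬ IsSimpleGroup (ProjectiveSpecialLinearGroup (Fin 2) F) := by
  classical
  intro hs
  have hc := Cfsg.Agent.Lib.Classical.AltIso.card_psl_two_mul (F := F)
  have hq3 : Fintype.card F = 3 := by simpa using hF
  have hg : Nat.gcd (3 - 1) 2 = 2 := by norm_num
  rw [hq3, hg] at hc
  have hc12 : Nat.card (ProjectiveSpecialLinearGroup (Fin 2) F) = 12 := by omega
  haveI : Finite (ProjectiveSpecialLinearGroup (Fin 2) F) := Nat.finite_of_card_ne_zero (by omega)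
  haveI : Fact (Nat.Prime 2) := ⟨Nat.prime_two⟩
  obtain ⟨K, hK⟩ := Sylow.exists_subgroup_card_pow_prime (G := ProjectiveSpecialLinearGroup (Fin 2) F) (p := 2) (n := 2)
    (by rw [hc12]; norm_num)
  have hidx : K.index = 3 := by
    have := K.card_mul_index
    rw [hK, hc12] at this
    omega
  haveI : Finite (ProjectiveSpecialLinearGroup (Fin 2) F ⧸ K) := inferInstance
  have hker : (MulAction.toPermHom (ProjectiveSpecialLinearGroup (Fin 2) F)
      (ProjectiveSpecialLinearGroup (Fin 2) F ⧸ K)).ker = K.normalCore := (Subgroup.normalCore_eq_ker K).symm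
  have hcore : K.normalCore = ⊥ := by
    have hle : K.normalCore ≤ K := Subgroup.normalCore_le K
    rcases (K.normalCore_normal).eq_bot_or_eq_top with h | h
    · exact h
    · exfalso
      rw [h, top_le_iff] at hle
      rw [hle] at hK
      rw [Subgroup.card_top, hc12] at hK
      norm_num at hK
  have hinj : Function.Injective (MulAction.toPermHom (ProjectiveSpecialLinearGroup (Fin 2) F)
      (ProjectiveSpecialLinearGroup (Fin 2) F ⧸ K)) := by
    rw [← MonoidHom.ker_eq_bot_iff, hker, hcore]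
  have h1 := Nat.card_le_card_of_injective _ hinj
  rw [Nat.card_perm, hc12] at h1
  have h2 : Nat.card (ProjectiveSpecialLinearGroup (Fin 2) F ⧸ K) = 3 := hidx
  rw [h2] at h1
  norm_num [Nat.factorial] at h1

/-- The model property for `PSL₂(3^(2n+1))`, `n ≥ 1`. -/
theorem modelProp (hF : Fintype.card F = 3 ^ (2 * n + 1)) (hn : 1 ≤ n) :
    ModelProp (ProjectiveSpecialLinearGroup (Fin 2) F) := by
  classical
  intro B hB h3 β hβ hβ1
  obtain ⟨-, x, r, hr, hr2, hr3, hr5, hr7, hr31, hx, hord⟩ := main hF hn β (hB β hβ) hβ1 (h3 β hβ)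
  refine ⟨x, r, 1, 3, hr, hr2, one_ne_zero, hx, by rw [pow_one, hord], ?_, ?_⟩
  · intro d hd1 hd2
    rw [pow_one]
    intro hd
    have hq : ∀ p : ℕ, p.Prime → r ∣ p → r = p := fun p hp h => (Nat.prime_dvd_prime_iff_eq hr hp).1 h
    have h3p : Nat.Prime 3 := Nat.prime_three
    have h5p : Nat.Prime 5 := by norm_num
    have h7p : Nat.Prime 7 := by norm_num
    have h31p : Nat.Prime 31 := by norm_num
    have hd6 : d ≤ 6 := by omega
    interval_cases d
    · exact hr.one_lt.ne' (Nat.dvd_one.1 (by simpa using hd))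
    · exact hr3 (hq 3 h3p (by simpa using hd))
    · exact hr7 (hq 7 h7p (by simpa using hd))
    · rcases (hr.dvd_mul).1 (show r ∣ 3 * 5 by simpa using hd) with h | h
      · exact hr3 (hq 3 h3p h)
      · exact hr5 (hq 5 h5p h)
    · exact hr31 (hq 31 h31p (by simpa using hd))
    · rcases (hr.dvd_mul).1 (show r ∣ 9 * 7 by simpa using hd) with h | h
      · exact hr3 (hq 3 h3p (hr.dvd_of_dvd_pow (show r ∣ 3 ^ 2 by simpa using h)))
      · exact hr7 (hq 7 h7p h)
  · -- the order of `B`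
    have hq0 : 0 < Fintype.card F := Fintype.card_pos
    haveI : Finite (ProjectiveSpecialLinearGroup (Fin 2) F) := inferInstance
    have hconj : Function.Injective (MulAut.conj : ProjectiveSpecialLinearGroup (Fin 2) F →* MulAut _) := by
      rw [injective_iff_map_eq_one]
      intro a ha
      have h1 : a ∈ Subgroup.center (ProjectiveSpecialLinearGroup (Fin 2) F) := by
        rw [Subgroup.mem_center_iff]
        intro b
        have := congrArg (fun f : MulAut _ => f b) ha
        simp only [MulAut.conj_apply, MulAut.one_apply] at this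
        rw [mul_inv_eq_iff_eq_mul] at this
        exact this.symm
      rw [Cfsg.Agent.Lib.Classical.LowOmega.center_psl_two_eq_bot] at h1
      exact h1
    have hBle : B ≤ (MulAut.conj : ProjectiveSpecialLinearGroup (Fin 2) F →* MulAut _).range := by
      intro γ hγ
      by_cases hγ1 : γ = 1
      · rw [hγ1]
        exact Subgroup.one_mem _
      · obtain ⟨⟨y, hy⟩, -⟩ := main hF hn γ (hB γ hγ) hγ1 (h3 γ hγ)
        exact ⟨y, hy.symm⟩
    set C := B.comap (MulAut.conj : ProjectiveSpecialLinearGroup (Fin 2) F →* MulAut _) with hC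
    have hcard : Nat.card C = Nat.card B := by
      have h1 : C.map (MulAut.conj : ProjectiveSpecialLinearGroup (Fin 2) F →* MulAut _) = B :=
        Subgroup.map_comap_eq_self hBle
      rw [← h1]
      exact Nat.card_congr (C.equivMapOfInjective _ hconj).toEquiv
    have hCp : IsPGroup 2 C := by
      intro c
      refine ⟨1, ?_⟩
      apply Subtype.ext
      apply hconj
      have h1 := hB _ c.2
      simp only [pow_one, pow_two, Subgroup.coe_mul, map_mul, Subgroup.coe_one, map_one]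
      exact h1
    haveI : Fact (Nat.Prime 2) := ⟨Nat.prime_two⟩
    obtain ⟨j, hj⟩ := IsPGroup.iff_card.1 hCp
    have hdvd : 2 ^ j ∣ Nat.card (ProjectiveSpecialLinearGroup (Fin 2) F) := by
      rw [← hj]
      exact Subgroup.card_subgroup_dvd_card C
    have hc := Cfsg.Agent.Lib.Classical.AltIso.card_psl_two_mul (F := F)
    set q := Fintype.card F with hq
    have hq16 : q % 16 = 3 ∨ q % 16 = 11 := by
      rw [hF]
      exact q_mod_sixteen n
    have hg : Nat.gcd (q - 1) 2 = 2 := Nat.gcd_eq_right (by omega)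
    rw [hg] at hc
    have hj2 : j ≤ 2 := by
      by_contra hlt
      push Not at hlt
      have h8 : 8 ∣ Nat.card (ProjectiveSpecialLinearGroup (Fin 2) F) := by
        refine dvd_trans ?_ hdvd
        exact pow_dvd_pow 2 hlt
      have h16 : 16 ∣ q * ((q - 1) * (q + 1)) := by
        rw [← hc]
        exact Nat.mul_dvd_mul h8 (dvd_refl 2)
      have hmod : q * ((q - 1) * (q + 1)) % 16 = 8 := by
        rw [Nat.mul_mod, Nat.mul_mod (q - 1)]
        rcases hq16 with h | h
        · have h1 : (q - 1) % 16 = 2 := by omega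
          have h2 : (q + 1) % 16 = 4 := by omega
          rw [h, h1, h2]
        · have h1 : (q - 1) % 16 = 10 := by omega
          have h2 : (q + 1) % 16 = 12 := by omega
          rw [h, h1, h2]
      omega
    have hB2 : Nat.card B ≤ 4 := by
      rw [← hcard, hj]
      calc 2 ^ j ≤ 2 ^ 2 := Nat.pow_le_pow_right (by norm_num) hj2
        _ = 4 := by norm_num
    calc Nat.card B ^ 2 ≤ 4 ^ 2 := Nat.pow_le_pow_left hB2 2
      _ = 2 ^ (3 + 1) := by norm_num

end Cfsg.Agent.Lib.SThreeFree.L2
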