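import Mathlib
import Cfsg.Agent.Lib.SzIso.OutSz
import Cfsg.Agent.Lib.SzFaithful.Sz
import Cfsg.Agent.Lib.SL2Faithful.Basic
import Cfsg.Agent.Lib.SThreeFree.Model

/-!
# Involutory automorphisms of the Suzuki groups

All involutory automorphisms of `Sz(q)` are inner, and elementary abelian `2`-subgroups have order at
most `q`.
-/

set_option autoImplicit false

namespace Cfsg.Agent.Lib.SThreeFree.SzModel

open Cfsg Cfsg.Agent.Lib.Suzuki.Core Cfsg.Agent.Lib.Suzuki.Elements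
  Cfsg.Agent.Lib.Suzuki.Stab Cfsg.Agent.Lib.Suzuki.Group Cfsg.Agent.Lib.Suzuki.Simple
  Cfsg.Agent.Lib.Suzuki.Sylow2
open Cfsg.Agent.Lib.SThreeFree.Model

variable {F : Type*} [Field F] [Fintype F] {m : ℕ}

/-- Elementary abelian `2`-subgroups of `Sz(q)` have order at most `q`. -/
theorem card_le_of_sq_eq_one [CharP F 2] (hc : Ctx F m) (C : Subgroup (Cfsg.Sz F m)) (hC : ∀ c ∈ C, c * c = 1) :
    Nat.card C ≤ 2 ^ (2 * m + 1) := by
  classical
  have hp : IsPGroup 2 C := by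
    intro c
    refine ⟨1, ?_⟩
    apply Subtype.ext
    simpa [pow_one, pow_two] using hC c c.2
  obtain ⟨P, hP⟩ := hp.exists_le_sylow
  obtain ⟨g, hg⟩ := MulAction.exists_smul_eq (Cfsg.Sz F m) P (UU hc)
  have hmem : ∀ c ∈ C, ∃ b : F, g * c * g⁻¹ = uS hc 0 b := by
    intro c hcC
    have h1 : g * c * g⁻¹ ∈ Usub hc := by
      rw [← coe_UU hc, ← hg, Sylow.coe_subgroup_smul]
      exact Subgroup.smul_mem_pointwise_smul c (MulAut.conj g) (P : Subgroup (Cfsg.Sz F m)) (hP hcC)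
    obtain ⟨a, b, hab⟩ := h1
    have h2 : uS hc a b * uS hc a b = 1 := by
      rw [← hab]
      have := hC c hcC
      calc g * c * g⁻¹ * (g * c * g⁻¹) = g * (c * c) * g⁻¹ := by group
        _ = 1 := by rw [this]; group
    have ha : a = 0 := Cfsg.Agent.Lib.SzIso.OutSz.uS_sq_eq_one hc h2
    exact ⟨b, by rw [hab, ha]⟩
  choose! f hf using hmem
  have hinj : Function.Injective (fun c : C => f c) := by
    intro c d h
    apply Subtype.ext
    have h1 : g * (c : Cfsg.Sz F m) * g⁻¹ = g * (d : Cfsg.Sz F m) * g⁻¹ := by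
      rw [hf c c.2, hf d d.2]
      exact congrArg _ h
    simpa using h1
  have h3 := Nat.card_le_card_of_injective _ hinj
  have h4 : Nat.card F = Fintype.card F := Nat.card_eq_fintype_card
  rwa [h4, hc.hcard] at h3

lemma eq_one_of_sq_of_odd {G : Type*} [Group G] {x : G} {k : ℕ} (h1 : x ^ (2 * k + 1) = 1) (h2 : x * x = 1) :
    x = 1 := by
  rw [pow_succ, pow_mul, pow_two, h2, one_pow, one_mul] at h1
  exact h1

lemma mul_self_of_orderOf {G : Type*} [Group G] {t : G} (h : orderOf t = 2) : t * t = 1 := by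
  rw [← pow_two, ← h, pow_orderOf_eq_one]

/-- The model property for the Suzuki groups. -/
theorem modelProp (hm : 1 ≤ m) (hF : Fintype.card F = 2 ^ (2 * m + 1)) :
    ModelProp ↥(Cfsg.Lie.Sz F (2 ^ (m + 1))) := by
  classical
  haveI hch : CharP F 2 := charP_two_of_card hF
  have hc := ctx_of_card hm hF
  set E := Cfsg.Agent.Lib.SzIso.Basic.equivSz hc with hE
  -- the centre
  have hcenter : Subgroup.center ↥(Cfsg.Lie.Sz F (2 ^ (m + 1))) = ⊥ := by
    rw [eq_bot_iff]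
    intro z hz
    have h1 : E.symm z ∈ Subgroup.center (Cfsg.Sz F m) := by
      rw [Subgroup.mem_center_iff] at hz ⊢
      intro g
      apply E.injective
      rw [map_mul, map_mul, E.apply_symm_apply, hz]
    rw [Cfsg.Agent.Lib.SzIso.OutSz.center_Sz hc, Subgroup.mem_bot] at h1
    rw [Subgroup.mem_bot]
    have := congrArg E h1
    simpa using this
  have hconj : Function.Injective
      (MulAut.conj : ↥(Cfsg.Lie.Sz F (2 ^ (m + 1))) →* MulAut ↥(Cfsg.Lie.Sz F (2 ^ (m + 1)))) := by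
    rw [injective_iff_map_eq_one]
    intro a ha
    have h1 : a ∈ Subgroup.center ↥(Cfsg.Lie.Sz F (2 ^ (m + 1))) := by
      rw [Subgroup.mem_center_iff]
      intro b
      have := congrArg (fun f : MulAut _ => f b) ha
      simp only [MulAut.conj_apply, MulAut.one_apply] at this
      rw [mul_inv_eq_iff_eq_mul] at this
      exact this.symm
    rw [hcenter] at h1
    exact h1
  -- involutory automorphisms are inner
  have hinner : ∀ γ : MulAut ↥(Cfsg.Lie.Sz F (2 ^ (m + 1))), γ * γ = 1 →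
      γ ∈ Cfsg.Inn ↥(Cfsg.Lie.Sz F (2 ^ (m + 1))) := by
    intro γ hγ
    have hout := Cfsg.Agent.Lib.SzIso.OutSz.main hm hF
    have h1 : ((γ : Cfsg.Out ↥(Cfsg.Lie.Sz F (2 ^ (m + 1))))) ^ (2 * m + 1) = 1 := by
      rw [← hout]
      exact pow_card_eq_one'
    have h2 : ((γ : Cfsg.Out ↥(Cfsg.Lie.Sz F (2 ^ (m + 1))))) * γ = 1 := by
      rw [← QuotientGroup.mk_mul, hγ]
      rfl
    exact (QuotientGroup.eq_one_iff γ).1 (eq_one_of_sq_of_odd h1 h2)
  intro B hB _ β hβ hβ1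
  -- the order of `B`
  have hBle : B ≤ Cfsg.Inn ↥(Cfsg.Lie.Sz F (2 ^ (m + 1))) := fun γ hγ => hinner γ (hB γ hγ)
  set C := B.comap (MulAut.conj : ↥(Cfsg.Lie.Sz F (2 ^ (m + 1))) →* MulAut ↥(Cfsg.Lie.Sz F (2 ^ (m + 1)))) with hC
  have hcard : Nat.card C = Nat.card B := by
    have h1 : C.map (MulAut.conj : ↥(Cfsg.Lie.Sz F (2 ^ (m + 1))) →* MulAut ↥(Cfsg.Lie.Sz F (2 ^ (m + 1)))) = B :=
      Subgroup.map_comap_eq_self hBle
    rw [← h1]
    exact Nat.card_congr (C.equivMapOfInjective _ hconj).toEquiv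
  have hCsq : ∀ c ∈ C, c * c = 1 := by
    intro c hcC
    apply hconj
    have h1 := hB _ hcC
    rw [map_mul, map_one]
    exact h1
  have hC' : Nat.card (C.map E.symm.toMonoidHom) = Nat.card C :=
    (Nat.card_congr (C.equivMapOfInjective _ E.symm.injective).toEquiv).symm
  have hBq : Nat.card B ≤ 2 ^ (2 * m + 1) := by
    rw [← hcard, ← hC']
    apply card_le_of_sq_eq_one hc
    rintro _ ⟨c, hcC, rfl⟩
    show E.symm c * E.symm c = 1
    rw [← map_mul, hCsq c hcC, map_one]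
  -- `β` itself
  obtain ⟨g, rfl⟩ := hinner β (hB β hβ)
  have hg1 : g ≠ 1 := by
    rintro rfl
    exact hβ1 (map_one _)
  have hgg : g * g = 1 := by
    apply hconj
    rw [map_mul, map_one]
    exact hB _ hβ
  have hg2 : orderOf g = 2 := orderOf_eq_prime (by rw [pow_two, hgg]) hg1
  have hf0 : 2 ≤ 2 * (2 * m + 1) := by omega
  obtain ⟨r, e, hr, hr2, he, -, -, hrd, hmin⟩ :=
    Cfsg.Agent.Lib.SL2Faithful.Basic.exists_prime_power_divisor Nat.prime_two hf0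
  have hqq : 2 ^ (2 * (2 * m + 1)) = (2 ^ (2 * m + 1)) ^ 2 := by
    rw [mul_comm 2 (2 * m + 1), pow_mul]
  rw [hqq] at hrd
  obtain ⟨t₁, t₂, h₁, h₂, h₃⟩ := Cfsg.Agent.Lib.SzFaithful.Sz.exists_prod_involutions hm hF hr he hrd
  obtain ⟨h, hh⟩ := Cfsg.Agent.Lib.SzFaithful.Sz.involutions_conj hm hF t₁ g h₁ hg2
  have ht₁ : t₁ * t₁ = 1 := mul_self_of_orderOf h₁
  have ht₂ : t₂ * t₂ = 1 := mul_self_of_orderOf h₂
  refine ⟨h * (t₁ * t₂) * h⁻¹, r, e, 2 * (2 * m + 1) - 1, hr, hr2, he, ?_, ?_, ?_, ?_⟩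
  · show MulAut.conj g (h * (t₁ * t₂) * h⁻¹) = (h * (t₁ * t₂) * h⁻¹)⁻¹
    rw [MulAut.conj_apply, ← hh]
    have h4 : t₁⁻¹ = t₁ := inv_eq_of_mul_eq_one_left ht₁
    have h5 : t₂⁻¹ = t₂ := inv_eq_of_mul_eq_one_left ht₂
    calc h * t₁ * h⁻¹ * (h * (t₁ * t₂) * h⁻¹) * (h * t₁ * h⁻¹)⁻¹
        = h * ((t₁ * t₁) * t₂ * t₁⁻¹) * h⁻¹ := by group
      _ = h * (t₂ * t₁⁻¹) * h⁻¹ := by rw [ht₁, one_mul]
      _ = (h * (t₁ * t₂) * h⁻¹)⁻¹ := by
          rw [mul_inv_rev, mul_inv_rev, mul_inv_rev, inv_inv, h5, h4]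
          group
  · have h6 : h * (t₁ * t₂) * h⁻¹ = MulAut.conj h (t₁ * t₂) := rfl
    rw [h6, MulEquiv.orderOf_eq, h₃]
  · intro d hd1 hd2 hd
    have := hmin d (by omega) hd
    omega
  · have h7 : 2 * (2 * m + 1) - 1 + 1 = 2 * (2 * m + 1) := by omega
    rw [h7, hqq]
    exact Nat.pow_le_pow_left hBq 2

end Cfsg.Agent.Lib.SThreeFree.SzModel
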