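import Mathlib
import Cfsg.Agent.Lib.SThreeFree.Comp
import Cfsg.Agent.Lib.SThreeFree.Sz
import Cfsg.Agent.Lib.SThreeFree.L2
import Cfsg.Prelude.Def_LocalEven

/-!
# The fixed point bound for `S₃`-free groups
-/

set_option autoImplicit false

namespace Cfsg.Agent.Lib.SThreeFree.Final

open Cfsg Subgroup
open Cfsg.Agent.Lib.SThreeFree.Module Cfsg.Agent.Lib.SThreeFree.Lift Cfsg.Agent.Lib.SThreeFree.Model
open Cfsg.Agent.Lib.SThreeFree.Comp
open Cfsg.Agent.Lib.Components.Basic
open scoped commutatorElement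

variable {X V : Type*} [Group X] [AddCommGroup V] {ρ : X →* AddMonoid.End V}

/-- A component contains a noncentral element of odd order. -/
theorem exists_odd_noncentral [Finite X] {L : Subgroup X} (hL : IsComponent L) :
    ∃ t ∈ L, ∃ n : ℕ, Odd n ∧ t ^ n = 1 ∧ ∃ v ∈ L, v * t ≠ t * v := by
  haveI hS : IsSimpleGroup (↥L ⧸ center ↥L) := hL.2.2
  haveI : Fact (Nat.Prime 2) := ⟨Nat.prime_two⟩
  have hnotP : ¬ IsPGroup 2 (↥L ⧸ center ↥L) := by
    intro hp
    haveI : Nontrivial (↥L ⧸ center ↥L) := IsSimpleGroup.toNontrivial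
    have h1 := hp.center_nontrivial
    have h2 : center (↥L ⧸ center ↥L) = ⊤ := by
      rcases (inferInstance : (center (↥L ⧸ center ↥L)).Normal).eq_bot_or_eq_top with h | h
      · rw [h] at h1
        exact absurd h1 (not_nontrivial_iff_subsingleton.2 inferInstance)
      · exact h
    have h3 : commutator ↥L ≤ center ↥L := by
      rw [commutator_def, Subgroup.commutator_le]
      intro x _ y _
      rw [← QuotientGroup.eq_one_iff, commutatorElement_def]
      have h4 : (x : ↥L ⧸ center ↥L) ∈ center (↥L ⧸ center ↥L) := by rw [h2]; trivial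
      have h5 := Subgroup.mem_center_iff.1 h4 (y : ↥L ⧸ center ↥L)
      simp only [QuotientGroup.mk_mul, QuotientGroup.mk_inv]
      rw [← h5]
      group
    rw [quasisimple_perfect hL.2, top_le_iff] at h3
    exact quasisimple_center_ne_top hL.2 h3
  unfold IsPGroup at hnotP
  push Not at hnotP
  obtain ⟨s, hs⟩ := hnotP
  obtain ⟨t₁, rfl⟩ := QuotientGroup.mk_surjective s
  have ho : orderOf t₁ ≠ 0 := (orderOf_pos t₁).ne'
  obtain ⟨k, m, hm, hkm⟩ := Nat.exists_eq_two_pow_mul_odd ho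
  refine ⟨((t₁ ^ 2 ^ k : ↥L) : X), (t₁ ^ 2 ^ k).2, m, hm, ?_, ?_⟩
  · have h1 : (t₁ ^ 2 ^ k) ^ m = 1 := by
      rw [← pow_mul, ← hkm, pow_orderOf_eq_one]
    have := congrArg Subtype.val h1
    simpa using this
  · by_contra hcon
    push Not at hcon
    apply hs k
    rw [← QuotientGroup.mk_pow, QuotientGroup.eq_one_iff, Subgroup.mem_center_iff]
    intro v
    apply Subtype.ext
    exact hcon v v.2

/-- The product formula, as an inequality. -/
lemma card_mul_le [Finite X] {A H B K : Subgroup X} (hKH : K ≤ H) (hKB : K ≤ B)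
    (hprod : ∀ a ∈ A, ∃ h ∈ H, ∃ b ∈ B, a = h * b) :
    Nat.card A * Nat.card K ≤ Nat.card H * Nat.card B := by
  classical
  choose! f hf g hg hfg using hprod
  let F : A × K → H × B := fun p =>
    (⟨f p.1 * p.2, H.mul_mem (hf _ p.1.2) (hKH p.2.2)⟩,
      ⟨(p.2 : X)⁻¹ * g p.1, B.mul_mem (B.inv_mem (hKB p.2.2)) (hg _ p.1.2)⟩)
  have hF : Function.Injective F := by
    rintro ⟨a, z⟩ ⟨a', z'⟩ h
    have h1 : f a * z = f a' * z' := congrArg (fun p : H × B => (p.1 : X)) h
    have h2 : (z : X)⁻¹ * g a = (z' : X)⁻¹ * g a' := congrArg (fun p : H × B => (p.2 : X)) h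
    have h3 : (a : X) = a' := by
      rw [hfg a a.2, hfg a' a'.2]
      calc f a * g a = (f a * z) * ((z : X)⁻¹ * g a) := by group
        _ = (f a' * z') * ((z' : X)⁻¹ * g a') := by rw [h1, h2]
        _ = f a' * g a' := by group
    have h4 : a = a' := Subtype.ext h3
    subst h4
    have h5 : z = z' := Subtype.ext (mul_left_cancel h1)
    rw [h5]
  have h3 := Nat.card_le_card_of_injective F hF
  rwa [Nat.card_prod, Nat.card_prod] at h3

/-- **Case B**: `A` moves a component. -/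
theorem exists_of_component [Finite X] [Finite V] (hV : ∀ v : V, v + v = 0) (hρ : Function.Injective ρ)
    (hO : pCore 2 X = ⊥) (hS3 : ¬ Cfsg.Involves (Equiv.Perm (Fin 3)) X) {L A : Subgroup X} (hL : IsComponent L)
    (hmodel : ModelProp (↥L ⧸ center ↥L)) (hA : IsElementaryAbelian 2 A)
    (hAZ : ∀ a ∈ A, ∀ z : ↥L, z ∈ center ↥L → a * z = z * a) (hnot : ¬ A ≤ centralizer (L : Set X)) :
    ∃ H, H < A ∧ Φ ρ A ≤ Φ ρ H := by
  classical
  set H₀ := A ⊓ centralizer (L : Set X) with hH₀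
  have hH₀A : H₀ < A := lt_of_le_of_ne inf_le_left (fun h => hnot (by
    rw [← h]
    exact inf_le_right))
  refine ⟨H₀, hH₀A, ?_⟩
  obtain ⟨H, hHmax⟩ := (Set.toFinite {H : Subgroup X | Good ρ L A H}).exists_maximal
    ⟨H₀, good_base ρ L A⟩
  have hG : Good ρ L A H := hHmax.1
  obtain ⟨t₀, ht₀, n, hn, ht₀n, v, hv, hvt⟩ := exists_odd_noncentral hL
  have hsqA : ∀ a ∈ A, a * a = 1 := fun a ha => by
    rw [← pow_two]
    exact hA.2 a ha
  have hall : ∀ a ∈ A, ∃ h ∈ H, h * a ∈ normalizer (L : Set X) := by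
    intro a ha
    by_contra hcon
    push Not at hcon
    obtain ⟨H', hlt, hG'⟩ := good_step hV hρ hS3 hL hA hG ha hcon ht₀ hn ht₀n hv hvt
    exact absurd (hHmax.2 hG' hlt.le) (not_le_of_gt hlt)
  by_cases hb : ∃ b ∈ A, b ∈ normalizer (L : Set X) ∧ b ∉ centralizer (L : Set X)
  · obtain ⟨b, hbA, hbN, hbC⟩ := hb
    obtain ⟨t, r, e, k, htL, hr, hr2, he, hbt, htr, ⟨w, hw, hwt⟩, hk, hcard⟩ :=
      exists_inverted hL hO hS3 hmodel hA hAZ hbA hbN hbC
    obtain ⟨y, hy1, hy2, -, hy4, hy5⟩ := hG.diag t htL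
    have hHp : IsPGroup 2 H := isPGroup_of_sq (fun h hh => hA.2 h (hG.le_A hh))
    have hyr := hy4 _ htr
    have hbY := hy5 b hbA hbt
    -- the power of `y` acts nontrivially
    have hz : ρ (y ^ r ^ (e - 1)) ≠ 1 := by
      intro h0
      have h1 : y ^ r ^ (e - 1) = 1 := by
        apply hρ
        rw [h0, map_one]
      set z := t⁻¹ * y with hz
      have hyz : y = t * z := by rw [hz]; group
      have htz : t * z = z * t := Subgroup.mem_centralizer_iff.1 hy1 t htL
      have hcm : Commute t z := htz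
      rw [hyz, hcm.mul_pow] at h1
      apply hwt
      have h2 : t ^ r ^ (e - 1) = (z ^ r ^ (e - 1))⁻¹ := eq_inv_of_mul_eq_one_left h1
      have h3 : w * z = z * w := Subgroup.mem_centralizer_iff.1 hy1 w hw
      have h4 : Commute w (z ^ r ^ (e - 1)) := Commute.pow_right (h3 : Commute w z) _
      rw [h2]
      exact h4.inv_right.eq
    have hgain := gain (ρ := ρ) hV hHp hr hr2 he hbY hy2 hyr hz hk hG.le_A hbA
    -- the counting
    have hprod : ∀ a ∈ A, ∃ h ∈ H, ∃ b ∈ A ⊓ normalizer (L : Set X), a = h * b := by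
      intro a ha
      obtain ⟨h, hh, hha⟩ := hall a ha
      refine ⟨h⁻¹, H.inv_mem hh, h * a, ⟨A.mul_mem (hG.le_A hh) ha, hha⟩, by group⟩
    have hc1 := card_mul_le (A := A) (K := H₀) hG.bot_le
      (le_inf inf_le_left (inf_le_right.trans (Subgroup.centralizer_le_normalizer _))) hprod
    have hpos : 0 < Nat.card H₀ := Nat.card_pos
    have hc2 : Nat.card A ^ 2 ≤ Nat.card H ^ 2 * 2 ^ (k + 1) := by
      have h3 : Nat.card A ^ 2 * Nat.card H₀ ^ 2 ≤ (Nat.card H ^ 2 * 2 ^ (k + 1)) * Nat.card H₀ ^ 2 := by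
        calc Nat.card A ^ 2 * Nat.card H₀ ^ 2 = (Nat.card A * Nat.card H₀) ^ 2 := by ring
          _ ≤ (Nat.card H * Nat.card ↥(A ⊓ normalizer (L : Set X))) ^ 2 := Nat.pow_le_pow_left hc1 2
          _ = Nat.card H ^ 2 * Nat.card ↥(A ⊓ normalizer (L : Set X)) ^ 2 := by ring
          _ ≤ Nat.card H ^ 2 * (2 ^ (k + 1) * Nat.card H₀ ^ 2) := Nat.mul_le_mul_left _ hcard
          _ = _ := by ring
      exact Nat.le_of_mul_le_mul_right h3 (by positivity)
    refine le_trans ?_ hG.phi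
    calc Nat.card A ^ 2 * Nat.card (Fix ρ A)
        ≤ (Nat.card H ^ 2 * 2 ^ (k + 1)) * Nat.card (Fix ρ A) := Nat.mul_le_mul_right _ hc2
      _ = Nat.card H ^ 2 * (2 ^ (k + 1) * Nat.card (Fix ρ A)) := by ring
      _ ≤ Nat.card H ^ 2 * Nat.card (Fix ρ H) := Nat.mul_le_mul_left _ hgain
  · -- `A = H`
    push Not at hb
    have hAH : A ≤ H := by
      intro a ha
      obtain ⟨h, hh, hha⟩ := hall a ha
      have h1 : h * a ∈ H := hG.bot_le ⟨A.mul_mem (hG.le_A hh) ha, hb _ (A.mul_mem (hG.le_A hh) ha) hha⟩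
      have h2 : a = h⁻¹ * (h * a) := by group
      rw [h2]
      exact H.mul_mem (H.inv_mem hh) h1
    have hEq : A = H := le_antisymm hAH hG.le_A
    rw [hEq]
    rw [← hEq]
    have := hG.phi
    rwa [← hEq] at this

/-- Existence of a moved component. -/
theorem exists_component [Finite X] (hO : pCore 2 X = ⊥) {A : Subgroup X} (hA : IsElementaryAbelian 2 A)
    (hne : A ≠ ⊥) (hAR : ∀ a ∈ A, ∀ c ∈ pPrimeCore 2 X, a * c = c * a) :
    ∃ L : Subgroup X, IsComponent L ∧ ¬ A ≤ centralizer (L : Set X) := by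
  classical
  haveI : Fact (Nat.Prime 2) := ⟨Nat.prime_two⟩
  by_contra hcon
  push Not at hcon
  have hF : fittingSubgroup X ≤ pPrimeCore 2 X := Cfsg.Agent.Lib.Components.CommAct.fitting_le_pPrimeCore hO
  have hAC : A ≤ centralizer (generalizedFittingSubgroup X : Set X) := by
    have h1 : generalizedFittingSubgroup X ≤ centralizer (A : Set X) := by
      refine sup_le ?_ ?_
      · refine sSup_le ?_
        intro L hL
        exact (Subgroup.le_centralizer_iff).1 (hcon L hL)
      · intro c hc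
        exact Subgroup.mem_centralizer_iff.2 (fun a ha => hAR a ha c (hF hc))
    exact (Subgroup.le_centralizer_iff).1 h1
  have h2 : A ≤ generalizedFittingSubgroup X ⊓ centralizer (generalizedFittingSubgroup X : Set X) :=
    le_inf (hAC.trans Cfsg.Agent.Lib.Components.GenFitting.centralizer_generalizedFitting_le) hAC
  have h3 : A ≤ pPrimeCore 2 X := (h2.trans Cfsg.Agent.Lib.Components.CommAct.inf_centralizer_le_fitting).trans hF
  apply hne
  rw [eq_bot_iff]
  intro a ha
  have hodd : (Nat.card (pPrimeCore 2 X)).Coprime 2 := Cfsg.Agent.Lib.Core.Basic.pPrimeCore_coprime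
  have h4 : orderOf a ∣ 2 := orderOf_dvd_of_pow_eq_one (hA.2 a ha)
  have h5 : orderOf a ∣ Nat.card (pPrimeCore 2 X) := by
    have := orderOf_dvd_natCard (⟨a, h3 ha⟩ : pPrimeCore 2 X)
    rwa [Subgroup.orderOf_mk] at this
  have h6 : orderOf a = 1 := Nat.Coprime.eq_one_of_dvd (Nat.Coprime.coprime_dvd_left h5 hodd) h4
  rw [Subgroup.mem_bot]
  exact orderOf_eq_one_iff.1 h6

/-- The simple sections. -/
theorem modelProp_of {S : Type*} [Group S] (hS : IsSimpleGroup S) (h : IsSuzukiOrPSL2OddPowerThree S) :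
    ModelProp S := by
  rcases h with ⟨F, _, _, m, hm, hF, ⟨E⟩⟩ | ⟨F, _, _, n, hF, ⟨E⟩⟩
  · exact ModelProp.of_mulEquiv E (Cfsg.Agent.Lib.SThreeFree.SzModel.modelProp hm hF)
  · rcases Nat.eq_zero_or_pos n with rfl | hn
    · exfalso
      exact Cfsg.Agent.Lib.SThreeFree.L2.not_simple_of_card_three hF E.symm.isSimpleGroup
    · exact ModelProp.of_mulEquiv E (Cfsg.Agent.Lib.SThreeFree.L2.modelProp hF hn)

/-- **The one step theorem.** -/
theorem exists_lt [Finite X] [Finite V] (hV : ∀ v : V, v + v = 0) (hρ : Function.Injective ρ)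
    (hO : pCore 2 X = ⊥) (hS3 : ¬ Cfsg.Involves (Equiv.Perm (Fin 3)) X)
    (hc : IsCompositionKGroupWith IsSuzukiOrPSL2OddPowerThree X) {A : Subgroup X}
    (hA : IsElementaryAbelian 2 A) (hne : A ≠ ⊥) :
    ∃ H, H < A ∧ Φ ρ A ≤ Φ ρ H := by
  classical
  haveI : Fact (Nat.Prime 2) := ⟨Nat.prime_two⟩
  by_cases hAR : ∀ a ∈ A, ∀ c ∈ pPrimeCore 2 X, a * c = c * a
  · obtain ⟨L, hL, hnot⟩ := exists_component hO hA hne hAR
    have hAZ : ∀ a ∈ A, ∀ z : ↥L, z ∈ center ↥L → a * z = z * a := by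
      intro a ha z hz
      apply hAR a ha
      apply Cfsg.Agent.Lib.Components.CommAct.fitting_le_pPrimeCore hO
      apply Cfsg.Agent.Lib.Core.Basic.map_fittingSubgroup_le_of_isSubnormal hL.1
      refine ⟨z, ?_, rfl⟩
      haveI : IsMulCommutative (center ↥L) :=
        ⟨⟨fun a b => Subtype.ext (Subgroup.mem_center_iff.1 b.2 a)⟩⟩
      exact Cfsg.Agent.Lib.Core.Basic.le_fittingSubgroup inferInstance Cfsg.Agent.Lib.Core.Basic.isNilpotent_of_isMulCommutative hz
    have hsimple : IsSimpleGroup (↥L ⧸ center ↥L) := hL.2.2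
    have hnc : ¬ IsMulCommutative (↥L ⧸ center ↥L) := by
      intro h
      have h3 : commutator ↥L ≤ center ↥L := by
        rw [_root_.commutator_def, Subgroup.commutator_le]
        intro x _ y _
        rw [← QuotientGroup.eq_one_iff, commutatorElement_def]
        have h5 := h.is_comm.comm (x : ↥L ⧸ center ↥L) (y : ↥L ⧸ center ↥L)
        simp only [QuotientGroup.mk_mul, QuotientGroup.mk_inv]
        rw [h5]
        group
      rw [quasisimple_perfect hL.2, top_le_iff] at h3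
      exact quasisimple_center_ne_top hL.2 h3
    have hK := hc L hL.1 (center ↥L) hsimple hnc
    exact exists_of_component hV hρ hO hS3 hL (modelProp_of hsimple hK) hA hAZ hnot
  · exact exists_of_not_centralizes_odd hV hρ hS3 hA hAR

/-- **The main theorem**: `|A|² |C_V(A)| ≤ |V|`. -/
theorem main [Finite X] [Finite V] (hV : ∀ v : V, v + v = 0) (hρ : Function.Injective ρ)
    (hO : pCore 2 X = ⊥) (hS3 : ¬ Cfsg.Involves (Equiv.Perm (Fin 3)) X)
    (hc : IsCompositionKGroupWith IsSuzukiOrPSL2OddPowerThree X) (A : Subgroup X)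
    (hA : IsElementaryAbelian 2 A) :
    Nat.card A ^ 2 * Nat.card (Fix ρ A) ≤ Nat.card V := by
  induction A using WellFoundedLT.induction with
  | ind A ih =>
    by_cases hne : A = ⊥
    · subst hne
      have h1 : Nat.card (⊥ : Subgroup X) = 1 := Subgroup.card_bot
      rw [h1, one_pow, one_mul]
      have h2 : Nat.card (Fix ρ (⊥ : Subgroup X)) ≤ Nat.card (⊤ : AddSubgroup V) :=
        AddSubgroup.card_le_of_le le_top
      rwa [AddSubgroup.card_top] at h2
    · obtain ⟨H, hlt, hle⟩ := exists_lt hV hρ hO hS3 hc hA hne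
      have hH : IsElementaryAbelian 2 H := by
        refine ⟨⟨⟨fun x y => ?_⟩⟩, fun h hh => hA.2 h (hlt.le hh)⟩
        have := hA.1.is_comm.comm ⟨x, hlt.le x.2⟩ ⟨y, hlt.le y.2⟩
        have h2 : (x : X) * y = y * x := congrArg Subtype.val this
        exact Subtype.ext h2
      exact hle.trans (ih H hlt hH)

end Cfsg.Agent.Lib.SThreeFree.Final
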