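import Mathlib
import Cfsg.Agent.Lib.SThreeFree.Final

/-!
# The dual bound

Applying the main theorem to the dual module gives `|A|² ≤ |[V, A]|`.
-/

set_option autoImplicit false

namespace Cfsg.Agent.Lib.SThreeFree.Dual

open Cfsg Subgroup
open Cfsg.Agent.Lib.SThreeFree.Module

universe u v

variable {X : Type u} {V : Type v} [Group X] [AddCommGroup V] [Module (ZMod 2) V]

/-- The contragredient representation. -/
noncomputable def dualRep (ρ : X →* AddMonoid.End V) : X →* AddMonoid.End (Module.Dual (ZMod 2) V) where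
  toFun g :=
    { toFun := fun f => f.comp (AddMonoidHom.toZModLinearMap 2 (ρ g⁻¹))
      map_zero' := rfl
      map_add' := fun _ _ => rfl }
  map_one' := by
    apply AddMonoidHom.ext
    intro f
    apply LinearMap.ext
    intro v
    show f (ρ 1⁻¹ v) = f v
    rw [inv_one, rho_one_apply]
  map_mul' g h := by
    apply AddMonoidHom.ext
    intro f
    apply LinearMap.ext
    intro v
    show f (ρ (g * h)⁻¹ v) = f (ρ h⁻¹ (ρ g⁻¹ v))
    rw [mul_inv_rev, rho_mul_apply]

lemma dualRep_apply (ρ : X →* AddMonoid.End V) (g : X) (f : Module.Dual (ZMod 2) V) (v : V) :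
    dualRep ρ g f v = f (ρ g⁻¹ v) := rfl

lemma dualRep_injective {ρ : X →* AddMonoid.End V} (hρ : Function.Injective ρ) :
    Function.Injective (dualRep ρ) := by
  rw [injective_iff_map_eq_one]
  intro g hg
  have h1 : ρ g⁻¹ = 1 := by
    apply AddMonoidHom.ext
    intro v
    have h2 : ρ g⁻¹ v - v = 0 := by
      rw [← Module.forall_dual_apply_eq_zero_iff (ZMod 2)]
      intro f
      have h3 : dualRep ρ g f = f := by rw [hg]; rfl
      have h4 : dualRep ρ g f v = f v := by rw [h3]
      rw [dualRep_apply] at h4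
      rw [map_sub, h4, sub_self]
    exact sub_eq_zero.1 h2
  have h5 : g⁻¹ = 1 := hρ (by rw [h1, map_one])
  exact inv_eq_one.1 h5

/-- The dual bound. -/
theorem dual_bound [Finite X] [Finite V] {ρ : X →* AddMonoid.End V} (hV : ∀ v : V, v + v = 0)
    (hρ : Function.Injective ρ) (hO : pCore 2 X = ⊥) (hS3 : ¬ Cfsg.Involves (Equiv.Perm (Fin 3)) X)
    (hc : IsCompositionKGroupWith IsSuzukiOrPSL2OddPowerThree X) (A : Subgroup X)
    (hA : IsElementaryAbelian 2 A) (W : AddSubgroup V) (hW : ∀ a ∈ A, ∀ v : V, ρ a v - v ∈ W) :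
    Nat.card A ^ 2 ≤ Nat.card W := by
  classical
  haveI : Fact (Nat.Prime 2) := ⟨Nat.prime_two⟩
  haveI : Module.Finite (ZMod 2) V := Module.Finite.of_finite
  haveI : Finite (Module.Dual (ZMod 2) V) := Module.finite_of_finite (ZMod 2)
  have hV' : ∀ f : Module.Dual (ZMod 2) V, f + f = 0 := by
    intro f
    apply LinearMap.ext
    intro v
    show f v + f v = 0
    exact CharTwo.add_self_eq_zero _
  have hmain := Cfsg.Agent.Lib.SThreeFree.Final.main hV' (dualRep_injective hρ) hO hS3 hc A hA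
  set W' : Submodule (ZMod 2) V := AddSubgroup.toZModSubmodule 2 W with hW'
  set D := W'.dualAnnihilator with hD
  have hDfix : (D.toAddSubgroup) ≤ Fix (dualRep ρ) A := by
    intro f hf a ha
    apply LinearMap.ext
    intro v
    rw [dualRep_apply]
    have h1 : ρ a⁻¹ v - v ∈ W' := hW a⁻¹ (A.inv_mem ha) v
    have h2 : f (ρ a⁻¹ v - v) = 0 := (Submodule.mem_dualAnnihilator _).1 hf _ h1
    rw [map_sub, sub_eq_zero] at h2
    exact h2
  have hc1 : Nat.card D.toAddSubgroup ≤ Nat.card (Fix (dualRep ρ) A) := AddSubgroup.card_le_of_le hDfix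
  have hc2 : Nat.card D.toAddSubgroup = Nat.card D := rfl
  have hfr := Subspace.finrank_add_finrank_dualAnnihilator_eq W'
  have hcV : Nat.card V = 2 ^ Module.finrank (ZMod 2) V := by
    rw [Module.natCard_eq_pow_finrank (K := ZMod 2)]
    simp
  have hcD : Nat.card (Module.Dual (ZMod 2) V) = 2 ^ Module.finrank (ZMod 2) V := by
    rw [Module.natCard_eq_pow_finrank (K := ZMod 2), Subspace.dual_finrank_eq]
    simp
  have hcW : Nat.card W' = 2 ^ Module.finrank (ZMod 2) W' := by
    rw [Module.natCard_eq_pow_finrank (K := ZMod 2)]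
    simp
  have hcA : Nat.card D = 2 ^ Module.finrank (ZMod 2) D := by
    rw [Module.natCard_eq_pow_finrank (K := ZMod 2)]
    simp
  have hcWW : Nat.card W' = Nat.card W := rfl
  have hprod : Nat.card D * Nat.card W = Nat.card (Module.Dual (ZMod 2) V) := by
    rw [hcD, ← hcWW, hcA, hcW, ← pow_add, ← hfr, add_comm]
  have hpos : 0 < Nat.card D := Nat.card_pos
  have h3 : Nat.card A ^ 2 * Nat.card D ≤ Nat.card W * Nat.card D := by
    calc Nat.card A ^ 2 * Nat.card D ≤ Nat.card A ^ 2 * Nat.card (Fix (dualRep ρ) A) :=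
          Nat.mul_le_mul_left _ (hc2 ▸ hc1)
      _ ≤ Nat.card (Module.Dual (ZMod 2) V) := hmain
      _ = Nat.card W * Nat.card D := by rw [← hprod, mul_comm]
  exact Nat.le_of_mul_le_mul_right h3 hpos

end Cfsg.Agent.Lib.SThreeFree.Dual
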